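import Cfsg.Agent.Lib.Helper25.BSChar1

set_option autoImplicit false

/-! Fourier analysis of the columns of a cyclic subgroup inverted by an involution. -/

open scoped ComplexConjugate

namespace Cfsg.Agent.Lib.Helper25

theorem root_sum {ζ : ℂ} {N : ℕ} (hζ : IsPrimitiveRoot ζ N) (m : ℕ) :
    ∑ k ∈ Finset.range N, (ζ ^ m) ^ k = if N ∣ m then (N : ℂ) else 0 := by
  split_ifs with h
  · rw [(hζ.pow_eq_one_iff_dvd m).2 h]; simp
  · apply geom_root
    · rw [← pow_mul, mul_comm, pow_mul, hζ.pow_eq_one, one_pow]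
    · intro h1; exact h ((hζ.pow_eq_one_iff_dvd m).1 h1)

theorem root_conj {ζ : ℂ} {N : ℕ} (hζ : IsPrimitiveRoot ζ N) (hN : 0 < N) {j : ℕ} (hj : j ≤ N) :
    conj (ζ ^ j) = ζ ^ (N - j) := by
  have h1 : ‖ζ‖ = 1 := hζ.norm'_eq_one hN.ne'
  rw [map_pow, ← Complex.inv_eq_conj h1]
  have h0 : ζ ≠ 0 := hζ.ne_zero hN.ne'
  have h2 : ζ ^ (N - j) * ζ ^ j = 1 := by
    rw [← pow_add, Nat.sub_add_cancel hj, hζ.pow_eq_one]
  rw [inv_pow]
  exact (eq_inv_of_mul_eq_one_left h2).symm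

theorem root_flip {ζ : ℂ} {N : ℕ} (hζ : IsPrimitiveRoot ζ N) (hN : 0 < N) {j k : ℕ} (hj : j ≤ N)
    (hk : k ≤ N) : (ζ ^ (N - j)) ^ (N - k) = (ζ ^ j) ^ k := by
  have h0 : ζ ≠ 0 := hζ.ne_zero hN.ne'
  have a1 : (ζ ^ (N - j)) ^ (N - k) * (ζ ^ (N - j)) ^ k = 1 := by
    rw [← pow_add, Nat.sub_add_cancel hk, ← pow_mul, mul_comm, pow_mul, hζ.pow_eq_one, one_pow]
  have a2 : (ζ ^ j) ^ k * (ζ ^ (N - j)) ^ k = 1 := by
    rw [← mul_pow, ← pow_add, Nat.add_sub_cancel' hj, hζ.pow_eq_one, one_pow]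
  exact mul_right_cancel₀ (pow_ne_zero _ (pow_ne_zero _ h0)) (a1.trans a2.symm)

variable {I : Type*}

theorem gram_alpha (B : Finset I) (c : ℕ → I → ℂ) {N : ℕ} {ζ : ℂ} (hζ : IsPrimitiveRoot ζ N)
    (hN : 0 < N)
    (hgram : ∀ k ∈ Finset.range N, 0 < k → ∀ l ∈ Finset.range N, 0 < l →
      ∑ χ ∈ B, c k χ * conj (c l χ)
        = (if l = k then (N : ℂ) else 0) + (if l = N - k then (N : ℂ) else 0))
    (α : ℕ → I → ℤ)
    (hα : ∀ j χ, ∑ k ∈ Finset.range N, c k χ * (1 - (ζ ^ j) ^ k) = (N : ℂ) * α j χ)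
    {i j : ℕ} (hi : 0 < i) (hiN : i < N) (hj : 0 < j) (hjN : j < N) :
    ∑ χ ∈ B, α i χ * α j χ = 2 + (if i = j then 1 else 0) + (if i + j = N then 1 else 0) := by
  have hNc : (N : ℂ) ≠ 0 := by exact_mod_cast hN.ne'
  have hαc : ∀ j χ, (α j χ : ℂ)
      = (N : ℂ)⁻¹ * ∑ k ∈ Finset.range N, c k χ * (1 - (ζ ^ j) ^ k) := by
    intro j χ; rw [hα]; field_simp
  have hreal : ∀ χ : I, (α i χ : ℂ) * (α j χ : ℂ) = (N : ℂ)⁻¹ * (N : ℂ)⁻¹ *
      ∑ k ∈ Finset.range N, ∑ l ∈ Finset.range N,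
        (1 - (ζ ^ i) ^ k) * conj (1 - (ζ ^ j) ^ l) * (c k χ * conj (c l χ)) := by
    intro χ
    have c1 : (α i χ : ℂ) * (α j χ : ℂ) = (α i χ : ℂ) * conj (α j χ : ℂ) := by simp
    rw [c1, hαc i, hαc j]
    rw [map_mul, map_sum, map_inv₀, Complex.conj_natCast]
    rw [mul_mul_mul_comm, Finset.sum_mul_sum]
    congr 1
    apply Finset.sum_congr rfl; intro k _
    apply Finset.sum_congr rfl; intro l _
    rw [map_mul]; ring
  have hconjw : ∀ l : ℕ, conj (1 - (ζ ^ j) ^ l) = 1 - (ζ ^ (N - j)) ^ l := by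
    intro l
    rw [map_sub, map_one, map_pow, root_conj hζ hN hjN.le]
  have inner : ∀ k ∈ Finset.range N,
      ∑ χ ∈ B, ∑ l ∈ Finset.range N,
        (1 - (ζ ^ i) ^ k) * conj (1 - (ζ ^ j) ^ l) * (c k χ * conj (c l χ))
      = (N : ℂ) * ((1 - (ζ ^ i) ^ k) * (2 - (ζ ^ (N - j)) ^ k - (ζ ^ j) ^ k)) := by
    intro k hk
    rcases Nat.eq_zero_or_pos k with rfl | hk0
    · simp
    · rw [Finset.sum_comm]
      have hkN := Finset.mem_range.1 hk
      have e : ∀ l ∈ Finset.range N,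
          ∑ χ ∈ B, (1 - (ζ ^ i) ^ k) * conj (1 - (ζ ^ j) ^ l) * (c k χ * conj (c l χ))
          = (if l = k then (1 - (ζ ^ i) ^ k) * conj (1 - (ζ ^ j) ^ l) * (N : ℂ) else 0)
            + (if l = N - k then (1 - (ζ ^ i) ^ k) * conj (1 - (ζ ^ j) ^ l) * (N : ℂ) else 0) := by
        intro l hl
        rw [← Finset.mul_sum]
        rcases Nat.eq_zero_or_pos l with rfl | hl0
        · rw [if_neg (by omega), if_neg (by omega)]; simp
        · rw [hgram k hk hk0 l hl hl0]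
          split_ifs <;> ring
      rw [Finset.sum_congr rfl e, Finset.sum_add_distrib, Finset.sum_ite_eq' , Finset.sum_ite_eq',
        if_pos hk, if_pos (Finset.mem_range.2 (by omega)), hconjw, hconjw,
        root_flip hζ hN hjN.le hkN.le]
      ring
  have key : ((∑ χ ∈ B, α i χ * α j χ : ℤ) : ℂ)
      = ((2 + (if i = j then 1 else 0) + (if i + j = N then 1 else 0) : ℤ) : ℂ) := by
    push_cast
    rw [Finset.sum_congr rfl (fun χ _ => hreal χ), ← Finset.mul_sum, Finset.sum_comm,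
      Finset.sum_congr rfl inner, ← Finset.mul_sum]
    have e : ∀ k : ℕ, (1 - (ζ ^ i) ^ k) * (2 - (ζ ^ (N - j)) ^ k - (ζ ^ j) ^ k)
        = 2 - (ζ ^ (N - j)) ^ k - (ζ ^ j) ^ k - 2 * (ζ ^ i) ^ k + (ζ ^ (i + (N - j))) ^ k
          + (ζ ^ (i + j)) ^ k := by
      intro k
      rw [pow_add ζ i (N - j), pow_add ζ i j, mul_pow, mul_pow]; ring
    rw [Finset.sum_congr rfl (fun k _ => e k)]
    simp only [Finset.sum_add_distrib, Finset.sum_sub_distrib, ← Finset.mul_sum, root_sum hζ]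
    have d1 : ¬ N ∣ N - j := fun h => by
      have := Nat.le_of_dvd (by omega) h; omega
    have d2 : ¬ N ∣ j := fun h => by
      have := Nat.le_of_dvd hj h; omega
    have d3 : ¬ N ∣ i := fun h => by
      have := Nat.le_of_dvd hi h; omega
    have d4 : N ∣ i + (N - j) ↔ i = j := by
      constructor
      · rintro ⟨m, hm⟩
        have hm1 : m = 1 := by
          have h1 : 0 < m := by
            rcases Nat.eq_zero_or_pos m with rfl | h
            · omega
            · exact h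
          have h2 : m < 2 := by
            by_contra hcon
            have : N * 2 ≤ N * m := Nat.mul_le_mul_left N (by omega)
            omega
          omega
        subst hm1; omega
      · rintro rfl; exact ⟨1, by omega⟩
    have d5 : N ∣ i + j ↔ i + j = N := by
      constructor
      · rintro ⟨m, hm⟩
        have hm1 : m = 1 := by
          have h1 : 0 < m := by
            rcases Nat.eq_zero_or_pos m with rfl | h
            · omega
            · exact h
          have h2 : m < 2 := by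
            by_contra hcon
            have : N * 2 ≤ N * m := Nat.mul_le_mul_left N (by omega)
            omega
          omega
        subst hm1; omega
      · intro h; exact ⟨1, by omega⟩
    rw [if_neg d1, if_neg d2, if_neg d3]
    simp only [d4, d5]
    simp only [Finset.sum_const, Finset.card_range, nsmul_eq_mul]
    split_ifs <;> field_simp <;> ring
  exact_mod_cast key

/-- Fourier inversion. -/
theorem alpha_inv (c : ℕ → I → ℂ) {N : ℕ} {ζ : ℂ} (hζ : IsPrimitiveRoot ζ N) (hN : 0 < N)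
    (α : ℕ → I → ℤ)
    (hα : ∀ j χ, ∑ k ∈ Finset.range N, c k χ * (1 - (ζ ^ j) ^ k) = (N : ℂ) * α j χ)
    (χ : I) {l : ℕ} (hl : 0 < l) (hlN : l < N) :
    c (N - l) χ = - ∑ j ∈ Finset.range N, (α j χ : ℂ) * (ζ ^ j) ^ l := by
  have hNc : (N : ℂ) ≠ 0 := by exact_mod_cast hN.ne'
  apply mul_left_cancel₀ hNc
  rw [mul_neg, Finset.mul_sum]
  have e : ∀ j ∈ Finset.range N, (N : ℂ) * ((α j χ : ℂ) * (ζ ^ j) ^ l)
      = ∑ k ∈ Finset.range N, c k χ * ((ζ ^ l) ^ j - (ζ ^ (k + l)) ^ j) := by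
    intro j _
    rw [← mul_assoc, ← hα, Finset.sum_mul]
    apply Finset.sum_congr rfl; intro k _
    have e1 : (ζ ^ j) ^ l = (ζ ^ l) ^ j := by rw [← pow_mul, ← pow_mul, mul_comm]
    have e2 : (ζ ^ j) ^ k * (ζ ^ l) ^ j = (ζ ^ (k + l)) ^ j := by
      rw [← pow_mul, ← pow_mul, ← pow_mul, ← pow_add]; congr 1; ring
    rw [e1, ← e2]; ring
  rw [Finset.sum_congr rfl e, Finset.sum_comm]
  have e2 : ∀ k ∈ Finset.range N, ∑ j ∈ Finset.range N, c k χ * ((ζ ^ l) ^ j - (ζ ^ (k + l)) ^ j)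
      = if k = N - l then - ((N : ℂ) * c k χ) else 0 := by
    intro k hk
    have hkN := Finset.mem_range.1 hk
    rw [← Finset.mul_sum, Finset.sum_sub_distrib, root_sum hζ, root_sum hζ]
    have d1 : ¬ N ∣ l := fun h => by
      have := Nat.le_of_dvd hl h; omega
    have d2 : N ∣ k + l ↔ k = N - l := by
      constructor
      · rintro ⟨m, hm⟩
        have hm1 : m = 1 := by
          have h1 : 0 < m := by
            rcases Nat.eq_zero_or_pos m with rfl | h
            · omega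
            · exact h
          have h2 : m < 2 := by
            by_contra hcon
            have : N * 2 ≤ N * m := Nat.mul_le_mul_left N (by omega)
            omega
          omega
        subst hm1; omega
      · intro h; exact ⟨1, by omega⟩
    rw [if_neg d1]
    simp only [d2]
    split_ifs <;> ring
  rw [Finset.sum_congr rfl e2, Finset.sum_ite_eq', if_pos (Finset.mem_range.2 (by omega))]
  ring

/-- linear relations pass from the columns to the integral vectors. -/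
theorem alpha_lin (B : Finset I) (c : ℕ → I → ℂ) {N : ℕ} {ζ : ℂ} (hN : 0 < N)
    (α : ℕ → I → ℤ)
    (hα : ∀ j χ, ∑ k ∈ Finset.range N, c k χ * (1 - (ζ ^ j) ^ k) = (N : ℂ) * α j χ)
    (X : I → ℂ) (hX : ∀ k ∈ Finset.range N, 0 < k → ∑ χ ∈ B, c k χ * X χ = 0) (j : ℕ) :
    ∑ χ ∈ B, (α j χ : ℂ) * X χ = 0 := by
  have hNc : (N : ℂ) ≠ 0 := by exact_mod_cast hN.ne'
  have hαc : ∀ j χ, (α j χ : ℂ)
      = (N : ℂ)⁻¹ * ∑ k ∈ Finset.range N, c k χ * (1 - (ζ ^ j) ^ k) := by
    intro j χ; rw [hα]; field_simp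
  have e : ∀ χ : I, (α j χ : ℂ) * X χ
      = ∑ k ∈ Finset.range N, (N : ℂ)⁻¹ * (1 - (ζ ^ j) ^ k) * (c k χ * X χ) := by
    intro χ
    rw [hαc, Finset.mul_sum, Finset.sum_mul]
    apply Finset.sum_congr rfl; intro k _; ring
  rw [Finset.sum_congr rfl (fun χ _ => e χ), Finset.sum_comm]
  apply Finset.sum_eq_zero
  intro k hk
  rw [← Finset.mul_sum]
  rcases Nat.eq_zero_or_pos k with rfl | hk0
  · simp
  · rw [hX k hk hk0, mul_zero]

end Cfsg.Agent.Lib.Helper25
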