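import Cfsg.Agent.Lib.Helper25.DihGroup
import Cfsg.Agent.Lib.Helper25.DihFourier
import Cfsg.Agent.Lib.Helper25.BSChar2
import Cfsg.Agent.S0514

set_option autoImplicit false

/-! Columns of the principal 2-block for dihedral Sylow 2-subgroups: the Gram matrix. -/

open Cfsg
open scoped ComplexConjugate

namespace Cfsg.Agent.Lib.Helper25

variable {G : Type*} [Group G] [Finite G] {M : Ideal AlgInt}

theorem gram_self' (hM : IsPModular 2 M) {y : G} (hy : ∃ k : ℕ, orderOf y = 2 ^ k) (hy1 : y ≠ 1)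
    (hc : ∃ k : ℕ, (pPrimeCore 2 (Subgroup.centralizer ({y} : Set G))).index = 2 ^ k) :
    ∑ᶠ χ ∈ principalBlock M G, (χ : G → ℂ) y * conj ((χ : G → ℂ) y)
      = ((2 ^ (Nat.card (Subgroup.centralizer ({y} : Set G))).factorization 2 : ℕ) : ℂ) := by
  classical
  have : Finite (IrrCharacter G) := Cfsg.Agent.Lib.Helper20.finite_irrCharacter
  have : Fintype (IrrCharacter G) := Fintype.ofFinite _
  have h1 := (Cfsg.Agent.S0947.result 2 M hM y hy hy1 1
    (by rw [orderOf_one]; norm_num)).2 hc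
  simp only [Subgroup.coe_one, mul_one] at h1
  have h2 : ∀ χ : IrrCharacter G, (χ : G → ℂ) y * conj ((χ : G → ℂ) y)
      = ((‖(χ : G → ℂ) y‖ ^ 2 : ℝ) : ℂ) := by
    intro χ
    rw [Complex.mul_conj, Complex.normSq_eq_norm_sq]
  simp only [h2]
  rw [finsum_B0_eq, ← Complex.ofReal_sum]
  rw [Cfsg.Agent.Lib.Helper81.finsum_mem_irr, ← Finset.sum_filter] at h1
  rw [h1]
  norm_cast

theorem core_index_invol (P : Sylow 2 G) (m : ℕ) (hm : 2 ≤ m)
    (hP : Nonempty ((P : Subgroup G) ≃* DihedralGroup m)) {t : G} (ht : orderOf t = 2) :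
    ∃ k : ℕ, (pPrimeCore 2 (Subgroup.centralizer ({t} : Set G))).index = 2 ^ k := by
  obtain ⟨K, hKn, hKodd, k, hk⟩ := Cfsg.Agent.S0514.result P m hm hP t ht
  have h3 : (Nat.card K).Coprime 2 := Nat.Coprime.symm (Nat.coprime_two_left.2 hKodd)
  have h4 : K ≤ pPrimeCore 2 _ := Cfsg.Agent.Lib.Helper40.le_pPrimeCore h3
  have h5 := Subgroup.index_dvd_of_le h4
  rw [hk] at h5
  obtain ⟨k', -, hk'⟩ := (Nat.dvd_prime_pow Nat.prime_two).1 h5
  exact ⟨k', hk'⟩

theorem core_index_of_cyclic {y : G} (A : Subgroup G) (hA : ∀ x ∈ A, Commute x y)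
    (hAc : IsCyclic A)
    (hcard : Nat.card A = 2 ^ (Nat.card (Subgroup.centralizer ({y} : Set G))).factorization 2) :
    ∃ k : ℕ, (pPrimeCore 2 (Subgroup.centralizer ({y} : Set G))).index = 2 ^ k := by
  have hle : A ≤ Subgroup.centralizer ({y} : Set G) := by
    intro x hx
    rw [Subgroup.mem_centralizer_singleton_iff]
    exact (hA x hx)
  have e := Subgroup.subgroupOfEquivOfLe hle
  have hc : Nat.card (A.subgroupOf (Subgroup.centralizer ({y} : Set G)))
      = 2 ^ (Nat.card (Subgroup.centralizer ({y} : Set G))).factorization 2 := by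
    rw [Nat.card_congr e.toEquiv, hcard]
  have hcyc : IsCyclic (A.subgroupOf (Subgroup.centralizer ({y} : Set G))) :=
    isCyclic_of_surjective e.symm e.symm.surjective
  exact index_pPrimeCore_of_cyclic_sylow (Sylow.ofCard _ hc) hcyc

variable {P : Sylow 2 G} {σ τ : G}

theorem Dih.pow_inj {P : Subgroup G} {N : ℕ} (D : Dih P σ τ N) {k l : ℕ} (hk : k < N) (hl : l < N)
    (h : σ ^ k = σ ^ l) : k = l :=
  pow_injOn_Iio_orderOf (by rw [Set.mem_Iio, D.ordσ]; exact hk)
    (by rw [Set.mem_Iio, D.ordσ]; exact hl) h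

theorem Dih.order_pow {P : Subgroup G} {n : ℕ} (hn : 3 ≤ n) (D : Dih P σ τ (2 ^ (n - 1))) {k : ℕ}
    (hk0 : 0 < k) (hk : k < 2 ^ (n - 1)) (hkh : k ≠ 2 ^ (n - 2)) :
    ∃ j : ℕ, orderOf (σ ^ k) = 2 ^ (j + 2) := by
  have hN : 2 ^ (n - 1) = 2 * 2 ^ (n - 2) := by
    rw [← pow_succ']; congr 1; omega
  have hh : 0 < 2 ^ (n - 2) := by positivity
  obtain ⟨i, -, hi⟩ := (Nat.dvd_prime_pow Nat.prime_two).1
    (D.ordσ ▸ orderOf_pow_dvd (x := σ) k)
  rcases i with _ | _ | i
  · exfalso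
    rw [pow_zero, orderOf_eq_one_iff] at hi
    have := D.pow_inj hk (by positivity : 0 < 2 ^ (n - 1)) (by rw [hi, pow_zero])
    omega
  · exfalso
    rw [zero_add, pow_one] at hi
    have h1 := Cfsg.Agent.Lib.Helper11.eq_of_orderOf_two_of_mem_cyclic (Subgroup.zpowers σ)
      (Subgroup.pow_mem _ (Subgroup.mem_zpowers σ) k)
      (Subgroup.pow_mem _ (Subgroup.mem_zpowers σ) (2 ^ (n - 2))) hi (D.ordJ hN hh)
    exact hkh (D.pow_inj hk (by omega) h1)
  · exact ⟨i, hi⟩

theorem Dih.gram (hM : IsPModular 2 M) {n : ℕ} (hn : 3 ≤ n)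
    (hP : Nonempty ((P : Subgroup G) ≃* DihedralGroup (2 ^ (n - 1))))
    (D : Dih (P : Subgroup G) σ τ (2 ^ (n - 1))) :
    ∀ k ∈ Finset.range (2 ^ (n - 1)), 0 < k → ∀ l ∈ Finset.range (2 ^ (n - 1)), 0 < l →
      ∑ᶠ χ ∈ principalBlock M G, (χ : G → ℂ) (σ ^ k) * conj ((χ : G → ℂ) (σ ^ l))
        = (if l = k then ((2 ^ (n - 1) : ℕ) : ℂ) else 0)
          + (if l = 2 ^ (n - 1) - k then ((2 ^ (n - 1) : ℕ) : ℂ) else 0) := by
  classical
  have := Fintype.ofFinite G
  obtain ⟨N, hNdef⟩ : ∃ N, N = 2 ^ (n - 1) := ⟨_, rfl⟩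
  obtain ⟨h, hhdef⟩ : ∃ h, h = 2 ^ (n - 2) := ⟨_, rfl⟩
  have hN : N = 2 * h := by
    rw [hNdef, hhdef, ← pow_succ']; congr 1; omega
  have hh : 0 < h := by rw [hhdef]; positivity
  rw [← hNdef] at D ⊢
  have hG : (Nat.card G).factorization 2 = n := by
    have h1 := P.card_eq_multiplicity
    have h2 : Nat.card (P : Subgroup G) = 2 ^ n := by
      rw [D.card, hNdef, ← pow_succ']; congr 1; omega
    rw [h2] at h1
    exact (Nat.pow_right_injective (le_refl 2) h1).symm
  have h2pow : ∀ l : ℕ, ∃ k' : ℕ, orderOf (σ ^ l) = 2 ^ k' := by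
    intro l
    obtain ⟨i, -, hi⟩ := (Nat.dvd_prime_pow Nat.prime_two).1
      (hNdef ▸ D.ordσ ▸ orderOf_pow_dvd (x := σ) l)
    exact ⟨i, hi⟩
  have hAcomm : ∀ k : ℕ, ∀ x ∈ Subgroup.zpowers σ, Commute x (σ ^ k) := by
    rintro k _ ⟨i, rfl⟩
    exact ((Commute.refl σ).zpow_left i).pow_right k
  have hAcard : Nat.card (Subgroup.zpowers σ) = 2 ^ (n - 2 + 1) := by
    rw [Nat.card_zpowers, D.ordσ, hNdef]; congr 1; omega
  have hσN : σ ^ N = 1 := by rw [← D.ordσ, pow_orderOf_eq_one]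
  intro k hk hk0 l hl hl0
  rw [Finset.mem_range] at hk hl
  have hne1 : σ ^ k ≠ 1 := by
    intro h1
    have := D.pow_inj hk (by omega : 0 < N) (by rw [h1, pow_zero])
    omega
  by_cases hkh : k = h
  · -- the central involution
    have hJ := D.ordJ hN hh
    subst hkh
    have hNk : N - k = k := by omega
    rw [hNk]
    split_ifs with hlk
    · subst hlk
      rw [gram_self' hM (h2pow l) hne1
        (core_index_invol P _ (by rw [← hNdef]; omega) hP hJ)]
      have hfac : (Nat.card (Subgroup.centralizer ({σ ^ l} : Set G))).factorization 2 = n := by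
        apply le_antisymm
        · rw [← hG]
          exact (Nat.factorization_le_iff_dvd Nat.card_pos.ne' Nat.card_pos.ne').2
            (Subgroup.card_subgroup_dvd_card _) 2
        · have hle : (P : Subgroup G) ≤ Subgroup.centralizer ({σ ^ l} : Set G) := by
            intro x hx
            rw [Subgroup.mem_centralizer_singleton_iff]
            exact D.J_central hN hh hx
          have h1 := Subgroup.card_dvd_of_le hle
          have h2 : Nat.card (P : Subgroup G) = 2 ^ n := by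
            rw [D.card, hNdef, ← pow_succ']; congr 1; omega
          rw [h2] at h1
          exact (Nat.Prime.pow_dvd_iff_le_factorization Nat.prime_two Nat.card_pos.ne').1 h1
      rw [hfac]
      have : (2 : ℕ) ^ n = N + N := by
        rw [hNdef, ← two_mul, ← pow_succ']; congr 1; omega
      rw [this]; push_cast; ring
    · rw [add_zero]
      apply gram_zero hM (h2pow k) (h2pow l)
      intro hconj
      apply hlk
      obtain ⟨g, hg⟩ := isConj_iff.1 hconj
      have ho : orderOf (σ ^ l) = 2 := by rw [← hg, orderOf_conj_eq, hJ]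
      have h1 := Cfsg.Agent.Lib.Helper11.eq_of_orderOf_two_of_mem_cyclic (Subgroup.zpowers σ)
        (Subgroup.pow_mem _ (Subgroup.mem_zpowers σ) l)
        (Subgroup.pow_mem _ (Subgroup.mem_zpowers σ) k) ho hJ
      exact D.pow_inj hl hk h1
  · obtain ⟨j, hj⟩ := Dih.order_pow hn (hNdef ▸ D) hk0 (hNdef ▸ hk) (hhdef ▸ hkh)
    obtain ⟨nc1, nc2⟩ := nc_lemma hj (Subgroup.zpowers σ) (hAcomm k) hAcard
      (by rw [hG]; omega) (D.rel_pow k)
    have hself : ∑ᶠ χ ∈ principalBlock M G, (χ : G → ℂ) (σ ^ k) * conj ((χ : G → ℂ) (σ ^ k))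
        = (N : ℂ) := by
      rw [gram_self' hM ⟨_, hj⟩ hne1 (core_index_of_cyclic (Subgroup.zpowers σ) (hAcomm k)
        inferInstance (by rw [nc1, hAcard])), nc1, hNdef]
      congr 2; omega
    have hinvk : (σ ^ k)⁻¹ = σ ^ (N - k) := by
      apply inv_eq_of_mul_eq_one_left
      rw [← pow_add, Nat.sub_add_cancel hk.le, hσN]
    have hne : k ≠ N - k := by omega
    by_cases h1 : l = k
    · rw [if_pos h1, if_neg (by omega), add_zero, h1]; exact hself
    · rw [if_neg h1, zero_add]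
      by_cases h2 : l = N - k
      · rw [if_pos h2, h2, ← hself]
        apply finsum_congr; intro χ
        apply finsum_congr; intro _
        rw [← hinvk, ← D.rel_pow k, Cfsg.Agent.Lib.Helper81.irr_classFunction χ (σ ^ k) τ]
      · rw [if_neg h2]
        apply gram_zero hM ⟨_, hj⟩ (h2pow l)
        intro hconj
        obtain ⟨g, hg⟩ := isConj_iff.1 hconj
        have ho : orderOf (σ ^ l) = orderOf (σ ^ k) := by rw [← hg, orderOf_conj_eq]
        have hmem := mem_zpowers_of_orderOf_eq (a := σ)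
          (Subgroup.pow_mem _ (Subgroup.mem_zpowers σ) k)
          (Subgroup.pow_mem _ (Subgroup.mem_zpowers σ) l) ho
        rw [← hg] at hmem
        rcases nc2 g hmem with h3 | h3
        · exact h1 (D.pow_inj hl hk (by rw [← hg, h3]))
        · exact h2 (D.pow_inj hl (by omega) (by rw [← hg, h3, hinvk]))

end Cfsg.Agent.Lib.Helper25
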