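import Cfsg.Agent.Lib.Helper25.BSCore

set_option autoImplicit false

/-! The combinatorial core for the principal 2-block of a group with dihedral Sylow 2-subgroups. -/

namespace Cfsg.Agent.Lib.Helper25

variable {I : Type*} [DecidableEq I]

theorem sum_ite_mul (S : Finset I) {a : I} (ha : a ∈ S) (c : ℤ) (g : I → ℤ) :
    ∑ χ ∈ S, (if χ = a then c else 0) * g χ = c * g a := by
  rw [Finset.sum_eq_single a]
  · simp
  · intro b _ hb; simp [hb]
  · intro h; exact absurd ha h

omit [DecidableEq I] in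
theorem eq_of_norm (S : Finset I) (β v : I → ℤ) (n : ℤ) (h1 : ∑ χ ∈ S, β χ * β χ = n)
    (h2 : ∑ χ ∈ S, v χ * β χ = n) (h3 : ∑ χ ∈ S, v χ * v χ = n) : ∀ χ ∈ S, β χ = v χ := by
  have h : ∑ χ ∈ S, (β χ - v χ) ^ 2 = 0 := by
    have e : ∀ χ, (β χ - v χ) ^ 2 = β χ * β χ - 2 * (v χ * β χ) + v χ * v χ := by
      intro χ; ring
    simp only [e, Finset.sum_add_distrib, Finset.sum_sub_distrib, ← Finset.mul_sum, h1, h2, h3]
    ring
  intro χ hχ
  have h4 := (Finset.sum_eq_zero_iff_of_nonneg (fun i _ => sq_nonneg _)).1 h χ hχ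
  have h5 := (pow_eq_zero_iff (two_ne_zero)).1 h4
  linarith

theorem two_rep (S : Finset I) (β : I → ℤ) (h : ∑ χ ∈ S, β χ * β χ = 2) :
    ∃ a ∈ S, ∃ b ∈ S, a ≠ b ∧ (β a = 1 ∨ β a = -1) ∧ (β b = 1 ∨ β b = -1) ∧
      ∀ χ ∈ S, β χ = (if χ = a then β a else 0) + (if χ = b then β b else 0) := by
  have h' : ∑ χ ∈ S, β χ ^ 2 = ((2 : ℕ) : ℤ) := by
    simp only [sq]; rw [h]; norm_num
  obtain ⟨h1, h2⟩ := support_sq S β 2 (by norm_num) h'
  obtain ⟨a, b, hab, hs⟩ := Finset.card_eq_two.1 h2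
  have ha : a ∈ S.filter (fun i => β i ≠ 0) := by rw [hs]; simp
  have hb : b ∈ S.filter (fun i => β i ≠ 0) := by rw [hs]; simp
  rw [Finset.mem_filter] at ha hb
  refine ⟨a, ha.1, b, hb.1, hab, ?_, ?_, ?_⟩
  · rcases h1 a ha.1 with h | h | h
    · exact absurd h ha.2
    · exact Or.inl h
    · exact Or.inr h
  · rcases h1 b hb.1 with h | h | h
    · exact absurd h hb.2
    · exact Or.inl h
    · exact Or.inr h
  · intro χ hχ
    by_cases hχa : χ = a
    · subst hχa; simp [hab]
    · by_cases hχb : χ = b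
      · subst hχb; simp [hχa]
      · have h3 : χ ∉ S.filter (fun i => β i ≠ 0) := by rw [hs]; simp [hχa, hχb]
        rw [Finset.mem_filter] at h3
        push Not at h3
        simp [hχa, hχb, h3 hχ]

theorem dih_comb (S : Finset I) (β : ℕ → I → ℤ) (f : I → ℤ) (N h : ℕ) (hNh : N = 2 * h)
    (hh : h = 2 ∨ 4 ≤ h)
    (b1 : ∀ i j, 0 < i → i < N → 0 < j → j < N →
      ∑ χ ∈ S, β i χ * β j χ = 1 + (if i = j then 1 else 0) + (if i + j = N then 1 else 0))
    (b2 : ∀ j, 0 < j → j < N → ∑ χ ∈ S, β j χ * f χ = -1)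
    (b3 : ∀ χ ∈ S, 0 < f χ) :
    ∃ x1 ∈ S, ∃ x2 ∈ S, ∃ x3 ∈ S, ∃ (y : ℕ → I) (d1 d2 d3 : ℤ),
      (d1 = 1 ∨ d1 = -1) ∧ (d2 = 1 ∨ d2 = -1) ∧ (d3 = 1 ∨ d3 = -1) ∧
      x1 ≠ x2 ∧ x1 ≠ x3 ∧ x2 ≠ x3 ∧
      (∀ j, 0 < j → j < N → j ≠ h → y j ∈ S ∧ y j ≠ x1 ∧ y j ≠ x2 ∧ y j ≠ x3 ∧
        ∀ χ ∈ S, β j χ = (if χ = x1 then d1 else 0) + (if χ = y j then -d1 else 0)) ∧
      (∀ i j, 0 < i → i < N → i ≠ h → 0 < j → j < N → j ≠ h →
        (y i = y j ↔ (i = j ∨ i + j = N))) ∧
      (∀ χ ∈ S, β h χ = (if χ = x1 then d1 else 0) + (if χ = x2 then d2 else 0)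
        + (if χ = x3 then d3 else 0)) := by
  have hh0 : 0 < h := by omega
  have hhN : h < N := by omega
  have nh : ∑ χ ∈ S, β h χ * β h χ = 3 := by
    rw [b1 h h hh0 hhN hh0 hhN, if_pos rfl, if_pos (by omega)]; norm_num
  have hbd : ∀ χ ∈ S, β h χ = 0 ∨ β h χ = 1 ∨ β h χ = -1 := by
    have h' : ∑ χ ∈ S, β h χ ^ 2 = ((3 : ℕ) : ℤ) := by
      simp only [sq]; rw [nh]; norm_num
    exact (support_sq S (β h) 3 (by norm_num) h').1
  have rep : ∀ j, (0 < j ∧ j < N ∧ j ≠ h) → ∃ a b : I, a ∈ S ∧ b ∈ S ∧ a ≠ b ∧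
      (β j a = 1 ∨ β j a = -1) ∧ (β j b = 1 ∨ β j b = -1) ∧
      (∀ χ ∈ S, β j χ = (if χ = a then β j a else 0) + (if χ = b then β j b else 0)) ∧
      β h a = β j a ∧ β h b = 0 := by
    rintro j ⟨hj0, hjN, hjh⟩
    have nj : ∑ χ ∈ S, β j χ * β j χ = 2 := by
      rw [b1 j j hj0 hjN hj0 hjN, if_pos rfl, if_neg (by omega)]; norm_num
    obtain ⟨a, ha, b, hb, hab, hA, hB, hr⟩ := two_rep S (β j) nj
    have hinner : β j a * β h a + β j b * β h b = 1 := by
      have h1 := b1 j h hj0 hjN hh0 hhN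
      rw [if_neg hjh, if_neg (by omega)] at h1
      have e : ∀ χ ∈ S, β j χ * β h χ = (if χ = a then β j a else 0) * β h χ
          + (if χ = b then β j b else 0) * β h χ := by
        intro χ hχ
        rw [← add_mul, ← hr χ hχ]
      rw [Finset.sum_congr rfl e, Finset.sum_add_distrib, sum_ite_mul S ha, sum_ite_mul S hb] at h1
      linarith
    have key : (β h a = β j a ∧ β h b = 0) ∨ (β h b = β j b ∧ β h a = 0) := by
      rcases hA with hA | hA <;> rcases hB with hB | hB <;> rcases hbd a ha with h | h | h <;>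
        rcases hbd b hb with h' | h' | h' <;> (rw [hA, hB, h, h'] at hinner; omega)
    rcases key with ⟨k1, k2⟩ | ⟨k1, k2⟩
    · exact ⟨a, b, ha, hb, hab, hA, hB, hr, k1, k2⟩
    · exact ⟨b, a, hb, ha, hab.symm, hB, hA, fun χ hχ => by rw [add_comm]; exact hr χ hχ, k1, k2⟩
  have hV1 : 0 < 1 ∧ 1 < N ∧ 1 ≠ h := by omega
  obtain ⟨a0, -⟩ := rep 1 hV1
  have : Nonempty I := ⟨a0⟩
  choose! a b ha hb hab hA hB hr hha hhb using rep
  have hne : ∀ i j, (0 < i ∧ i < N ∧ i ≠ h) → (0 < j ∧ j < N ∧ j ≠ h) → a i ≠ b j := by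
    intro i j hi hj he
    have h1 := hha i hi
    have h2 : β h (a i) = 0 := by rw [he]; exact hhb j hj
    rcases hA i hi with h | h <;> omega
  have inner : ∀ i j, (0 < i ∧ i < N ∧ i ≠ h) → (0 < j ∧ j < N ∧ j ≠ h) →
      β i (a i) * β j (a j) * (if a i = a j then 1 else 0)
        + β i (b i) * β j (b j) * (if b i = b j then 1 else 0)
      = 1 + (if i = j then 1 else 0) + (if i + j = N then 1 else 0) := by
    intro i j hi hj
    rw [← b1 i j hi.1 hi.2.1 hj.1 hj.2.1]
    have e : ∀ χ ∈ S, β i χ * β j χ = (if χ = a i then β i (a i) else 0) * β j χ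
        + (if χ = b i then β i (b i) else 0) * β j χ := by
      intro χ hχ
      rw [← add_mul, ← hr i hi χ hχ]
    rw [Finset.sum_congr rfl e, Finset.sum_add_distrib, sum_ite_mul S (ha i hi),
      sum_ite_mul S (hb i hi), hr j hj (a i) (ha i hi), hr j hj (b i) (hb i hi),
      if_neg (hne i j hi hj), if_neg (show ¬ b i = a j from fun he => hne j i hj hi he.symm)]
    split_ifs <;> ring
  have deg : ∀ j, (0 < j ∧ j < N ∧ j ≠ h) → β j (a j) * f (a j) + β j (b j) * f (b j) = -1 := by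
    intro j hj
    rw [← b2 j hj.1 hj.2.1]
    have e : ∀ χ ∈ S, β j χ * f χ = (if χ = a j then β j (a j) else 0) * f χ
        + (if χ = b j then β j (b j) else 0) * f χ := by
      intro χ hχ
      rw [← add_mul, ← hr j hj χ hχ]
    rw [Finset.sum_congr rfl e, Finset.sum_add_distrib, sum_ite_mul S (ha j hj),
      sum_ite_mul S (hb j hj)]
  have common : ∀ i j, (0 < i ∧ i < N ∧ i ≠ h) → (0 < j ∧ j < N ∧ j ≠ h) → a i = a j := by
    intro i j hi hj
    by_contra hcon
    have h1 := inner i j hi hj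
    rw [if_neg hcon] at h1
    have hbb : b i = b j := by
      by_contra hb'
      rw [if_neg hb'] at h1
      split_ifs at h1 <;> omega
    rw [if_pos hbb] at h1
    have hij : i ≠ j := fun he => hcon (by rw [he])
    have hijN : i + j ≠ N := by
      intro he
      rw [if_neg hij, if_pos he] at h1
      rcases hB i hi with h | h <;> rcases hB j hj with h' | h' <;> rw [h, h'] at h1 <;> omega
    have h4 : 4 ≤ h := by omega
    obtain ⟨k, hk0, hkh, hki, hkj, hkiN, hkjN⟩ : ∃ k, 0 < k ∧ k < h ∧ k ≠ i ∧ k ≠ j ∧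
        k + i ≠ N ∧ k + j ≠ N := by
      by_contra hno
      push Not at hno
      have e1 := hno 1 (by omega) (by omega)
      have e2 := hno 2 (by omega) (by omega)
      have e3 := hno 3 (by omega) (by omega)
      omega
    have hk : 0 < k ∧ k < N ∧ k ≠ h := by omega
    have hik := inner i k hi hk
    have hjk := inner j k hj hk
    rw [if_neg (Ne.symm hki), if_neg (show ¬ i + k = N by omega)] at hik
    rw [if_neg (Ne.symm hkj), if_neg (show ¬ j + k = N by omega)] at hjk
    rw [if_neg hij, if_neg hijN] at h1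
    by_cases hbk : b i = b k
    · have hbk' : b j = b k := by rw [← hbb]; exact hbk
      rw [if_pos hbk] at hik
      rw [if_pos hbk'] at hjk
      have haik : a i ≠ a k := by
        intro he
        rw [if_pos he] at hik
        rcases hA i hi with h | h <;> rcases hA k hk with h' | h' <;>
          rcases hB i hi with h'' | h'' <;> rcases hB k hk with h''' | h''' <;>
          rw [h, h', h'', h'''] at hik <;> omega
      have hajk : a j ≠ a k := by
        intro he
        rw [if_pos he] at hjk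
        rcases hA j hj with h | h <;> rcases hA k hk with h' | h' <;>
          rcases hB j hj with h'' | h'' <;> rcases hB k hk with h''' | h''' <;>
          rw [h, h', h'', h'''] at hjk <;> omega
      rw [if_neg haik] at hik
      rw [if_neg hajk] at hjk
      -- the three odd characters
      obtain ⟨v, hv⟩ : ∃ v : I → ℤ, v = fun χ => (if χ = a i then β i (a i) else 0)
          + (if χ = a j then β j (a j) else 0) + (if χ = a k then β k (a k) else 0) := ⟨_, rfl⟩
      have sumv : ∀ g : I → ℤ, ∑ χ ∈ S, v χ * g χ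
          = β i (a i) * g (a i) + β j (a j) * g (a j) + β k (a k) * g (a k) := by
        intro g
        rw [hv]
        simp only [add_mul, Finset.sum_add_distrib]
        rw [sum_ite_mul S (ha i hi), sum_ite_mul S (ha j hj), sum_ite_mul S (ha k hk)]
      have sq1 : ∀ m, (0 < m ∧ m < N ∧ m ≠ h) → β m (a m) * β m (a m) = 1 := by
        intro m hm
        rcases hA m hm with h | h <;> rw [h] <;> norm_num
      have e2 : ∑ χ ∈ S, v χ * β h χ = 3 := by
        rw [sumv, hha i hi, hha j hj, hha k hk, sq1 i hi, sq1 j hj, sq1 k hk]; norm_num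
      have vi : v (a i) = β i (a i) := by
        rw [hv]; simp [hcon, haik]
      have vj : v (a j) = β j (a j) := by
        rw [hv]; simp [Ne.symm hcon, hajk]
      have vk : v (a k) = β k (a k) := by
        rw [hv]; simp [Ne.symm haik, Ne.symm hajk]
      have e3 : ∑ χ ∈ S, v χ * v χ = 3 := by
        rw [sumv, vi, vj, vk, sq1 i hi, sq1 j hj, sq1 k hk]; norm_num
      have heq := eq_of_norm S (β h) v 3 nh e2 e3
      have e4 := b2 h hh0 hhN
      rw [Finset.sum_congr rfl (fun χ hχ => by rw [heq χ hχ]), sumv] at e4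
      have di := deg i hi
      have dj := deg j hj
      have dk := deg k hk
      have s1 : β j (b j) = β i (b i) := by
        rcases hB i hi with h | h <;> rcases hB j hj with h' | h' <;> rw [h, h'] at h1 <;>
          first | omega | (rw [h, h'])
      have s2 : β k (b k) = β i (b i) := by
        rcases hB i hi with h | h <;> rcases hB k hk with h' | h' <;> rw [h, h'] at hik <;>
          first | omega | (rw [h, h'])
      rw [s1, ← hbb] at dj
      rw [s2, ← hbk] at dk
      omega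
    · rw [if_neg hbk] at hik
      have hbk' : b j ≠ b k := by rw [← hbb]; exact hbk
      rw [if_neg hbk'] at hjk
      have e1 : a i = a k := by
        by_contra he
        rw [if_neg he] at hik; omega
      have e2 : a j = a k := by
        by_contra he
        rw [if_neg he] at hjk; omega
      exact hcon (e1.trans e2.symm)
  -- naming
  obtain ⟨x1, hx1⟩ : ∃ x1, x1 = a 1 := ⟨_, rfl⟩
  obtain ⟨d1, hd1⟩ : ∃ d1, d1 = β h x1 := ⟨_, rfl⟩
  have hax : ∀ j, (0 < j ∧ j < N ∧ j ≠ h) → a j = x1 := fun j hj => by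
    rw [hx1]; exact common j 1 hj hV1
  have hx1S : x1 ∈ S := hx1 ▸ ha 1 hV1
  have hAd : ∀ j, (0 < j ∧ j < N ∧ j ≠ h) → β j (a j) = d1 := by
    intro j hj
    rw [hd1, ← hha j hj, hax j hj]
  have hd1pm : d1 = 1 ∨ d1 = -1 := by
    rw [← hAd 1 hV1]; exact hA 1 hV1
  have hBd : ∀ j, (0 < j ∧ j < N ∧ j ≠ h) → β j (b j) = -d1 := by
    intro j hj
    have dj := deg j hj
    rw [hAd j hj] at dj
    have f1 := b3 _ (ha j hj)
    have f2 := b3 _ (hb j hj)
    rcases hd1pm with h | h <;> rcases hB j hj with h' | h' <;> rw [h, h'] at dj <;>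
      first | omega | (rw [h, h']; norm_num)
  -- the vector `β h`
  obtain ⟨γ, hγ⟩ : ∃ γ : I → ℤ, γ = fun χ => β h χ - (if χ = x1 then d1 else 0) := ⟨_, rfl⟩
  have d1sq : d1 * d1 = 1 := by rcases hd1pm with h | h <;> rw [h] <;> norm_num
  have nγ : ∑ χ ∈ S, γ χ * γ χ = 2 := by
    have e : ∀ χ, γ χ * γ χ = β h χ * β h χ - 2 * ((if χ = x1 then d1 else 0) * β h χ)
        + (if χ = x1 then d1 else 0) * (if χ = x1 then d1 else 0) := by
      intro χ; rw [hγ]; ring
    simp only [e, Finset.sum_add_distrib, Finset.sum_sub_distrib, ← Finset.mul_sum]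
    rw [nh, sum_ite_mul S hx1S, sum_ite_mul S hx1S, if_pos rfl, ← hd1, d1sq]; norm_num
  obtain ⟨x2, hx2S, x3, hx3S, h23, hG2, hG3, hrγ⟩ := two_rep S γ nγ
  have γx1 : γ x1 = 0 := by rw [hγ]; simp [hd1]
  have h12 : x1 ≠ x2 := by
    intro he; rw [← he, γx1] at hG2; omega
  have h13 : x1 ≠ x3 := by
    intro he; rw [← he, γx1] at hG3; omega
  have hβh : ∀ χ ∈ S, β h χ = (if χ = x1 then d1 else 0) + (if χ = x2 then γ x2 else 0)
        + (if χ = x3 then γ x3 else 0) := by
    intro χ hχ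
    have h1 := hrγ χ hχ
    have h2 : γ χ = β h χ - (if χ = x1 then d1 else 0) := by rw [hγ]
    rw [h2] at h1
    linarith
  refine ⟨x1, hx1S, x2, hx2S, x3, hx3S, b, d1, γ x2, γ x3, hd1pm, hG2, hG3, h12, h13, h23,
    ?_, ?_, hβh⟩
  · intro j hj0 hjN hjh
    have hj : 0 < j ∧ j < N ∧ j ≠ h := ⟨hj0, hjN, hjh⟩
    have hb0 := hhb j hj
    refine ⟨hb j hj, ?_, ?_, ?_, ?_⟩
    · rw [← hax j hj]; exact (hab j hj).symm
    · intro he
      have h1 := hβh x2 hx2S
      rw [← he, hb0] at h1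
      rw [he] at h1
      simp [Ne.symm h12, h23] at h1
      rw [← h1] at hG2; omega
    · intro he
      have h1 := hβh x3 hx3S
      rw [← he, hb0] at h1
      rw [he] at h1
      simp [Ne.symm h13, Ne.symm h23] at h1
      rw [← h1] at hG3; omega
    · intro χ hχ
      rw [hr j hj χ hχ, hAd j hj, hBd j hj, hax j hj]
  · intro i j hi0 hiN hih hj0 hjN hjh
    have hi : 0 < i ∧ i < N ∧ i ≠ h := ⟨hi0, hiN, hih⟩
    have hj : 0 < j ∧ j < N ∧ j ≠ h := ⟨hj0, hjN, hjh⟩
    have h1 := inner i j hi hj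
    rw [if_pos (common i j hi hj), hAd i hi, hAd j hj, hBd i hi, hBd j hj] at h1
    have e : -d1 * -d1 = 1 := by rw [neg_mul_neg, d1sq]
    rw [e, d1sq] at h1
    constructor
    · intro he
      rw [if_pos he] at h1
      by_contra hcon
      push Not at hcon
      rw [if_neg hcon.1, if_neg hcon.2] at h1
      omega
    · intro he
      by_contra hcon
      rw [if_neg hcon] at h1
      rcases he with he | he
      · rw [if_pos he] at h1
        split_ifs at h1 <;> omega
      · rw [if_pos he] at h1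
        split_ifs at h1 <;> omega

end Cfsg.Agent.Lib.Helper25
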