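import Cfsg.Agent.Lib.Helper25.DihGroup

set_option autoImplicit false

/-! Counting involutions in a 2-nilpotent group with dihedral Sylow 2-subgroups and a central
involution. -/

open Cfsg

namespace Cfsg.Agent.Lib.Helper25

section Fiber

variable {G : Type*} [Group G] [Fintype G] [DecidableEq G]

/-- sums over conjugates. -/
theorem sum_conj_eq (x : G) (φ : G → ℂ) :
    ∑ g : G, φ (g * x * g⁻¹) = (Nat.card (Subgroup.centralizer ({x} : Set G)) : ℂ)
      * ∑ s ∈ Finset.univ.image (fun g : G => g * x * g⁻¹), φ s := by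
  classical
  rw [← Finset.sum_fiberwise_of_maps_to (s := Finset.univ)
    (t := Finset.univ.image (fun g : G => g * x * g⁻¹)) (g := fun g : G => g * x * g⁻¹)
    (fun g _ => Finset.mem_image_of_mem _ (Finset.mem_univ g)), Finset.mul_sum]
  apply Finset.sum_congr rfl
  intro s hs
  obtain ⟨g₀, -, rfl⟩ := Finset.mem_image.1 hs
  have h1 : ∀ g ∈ Finset.univ.filter (fun g : G => g * x * g⁻¹ = g₀ * x * g₀⁻¹),
      φ (g * x * g⁻¹) = φ (g₀ * x * g₀⁻¹) := by
    intro g hg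
    rw [(Finset.mem_filter.1 hg).2]
  rw [Finset.sum_congr rfl h1, Finset.sum_const, nsmul_eq_mul]
  congr 2
  have h2 : Finset.univ.filter (fun g : G => g * x * g⁻¹ = g₀ * x * g₀⁻¹)
      = (Finset.univ.filter (fun c : G => c ∈ Subgroup.centralizer ({x} : Set G))).image
        (fun c => g₀ * c) := by
    ext g
    simp only [Finset.mem_filter, Finset.mem_univ, true_and, Finset.mem_image,
      Subgroup.mem_centralizer_singleton_iff]
    constructor
    · intro h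
      refine ⟨g₀⁻¹ * g, ?_, by group⟩
      have e : g₀⁻¹ * g * x = g₀⁻¹ * (g * x * g⁻¹) * g := by group
      rw [e, h]; group
    · rintro ⟨c, hc, rfl⟩
      have e : g₀ * c * x * (g₀ * c)⁻¹ = g₀ * (c * x) * c⁻¹ * g₀⁻¹ := by group
      rw [e, hc]; group
  rw [h2, Finset.card_image_of_injective _ (mul_right_injective g₀),
    Nat.card_eq_fintype_card, Fintype.card_subtype]

theorem card_conj_image (x : G) :
    (Nat.card (Subgroup.centralizer ({x} : Set G)))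
      * (Finset.univ.image (fun g : G => g * x * g⁻¹)).card = Nat.card G := by
  have h := sum_conj_eq x (fun _ => 1)
  simp only [Finset.sum_const, Finset.card_univ, nsmul_eq_mul, mul_one] at h
  rw [Nat.card_eq_fintype_card (α := G)]
  exact_mod_cast h.symm

end Fiber

namespace Dih

variable {G : Type*} [Group G] {P : Subgroup G} {σ τ : G} {N : ℕ}

theorem τ_not_mem (D : Dih P σ τ N) (hN : 3 ≤ N) : τ ∉ Subgroup.zpowers σ := by
  intro h
  have h1 := D.rel_mem (Subgroup.mem_zpowers σ)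
  obtain ⟨k, hk⟩ := h
  have h2 : τ * σ = σ * τ := by
    rw [← hk]
    exact ((Commute.refl σ).zpow_left k)
  rw [h2, mul_inv_cancel_right] at h1
  have h3 : σ ^ 2 = 1 := by
    rw [sq]
    calc σ * σ = σ * σ⁻¹ := by rw [← h1]
      _ = 1 := mul_inv_cancel σ
  have h4 := orderOf_dvd_of_pow_eq_one h3
  rw [D.ordσ] at h4
  have := Nat.le_of_dvd (by norm_num) h4
  omega

theorem conj_pow (D : Dih P σ τ N) (b c : ℕ) :
    σ ^ b * (σ ^ c * τ) * (σ ^ b)⁻¹ = σ ^ (c + 2 * b) * τ := by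
  have h1 : τ * (σ ^ b)⁻¹ = σ ^ b * τ := by
    have h2 := D.rel_pow b
    have h3 : τ * (σ ^ b)⁻¹ * τ⁻¹ = σ ^ b := by
      have : τ * (σ ^ b)⁻¹ * τ⁻¹ = (τ * σ ^ b * τ⁻¹)⁻¹ := by group
      rw [this, h2, inv_inv]
    calc τ * (σ ^ b)⁻¹ = τ * (σ ^ b)⁻¹ * τ⁻¹ * τ := by group
      _ = σ ^ b * τ := by rw [h3]
  calc σ ^ b * (σ ^ c * τ) * (σ ^ b)⁻¹ = σ ^ b * σ ^ c * (τ * (σ ^ b)⁻¹) := by group
    _ = σ ^ b * σ ^ c * (σ ^ b * τ) := by rw [h1]
    _ = σ ^ (c + 2 * b) * τ := by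
      rw [← mul_assoc, ← pow_add, ← pow_add]; congr 2; ring

theorem mul_refl (D : Dih P σ τ N) (hN : 0 < N) (a b : ℕ) :
    σ ^ a * τ * (σ ^ b * τ) = σ ^ (a + (N - 1) * b) := by
  have e : σ ^ a * τ * (σ ^ b * τ) = σ ^ a * (τ * σ ^ b * τ⁻¹) * (τ * τ) := by group
  rw [e, D.rel_pow, D.ττ, mul_one, pow_add]
  congr 1
  apply inv_eq_of_mul_eq_one_left
  rw [← pow_add]
  have : (N - 1) * b + b = N * b := by
    obtain ⟨m, rfl⟩ : ∃ m, N = m + 1 := ⟨N - 1, by omega⟩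
    simp; ring
  rw [this, pow_mul, ← D.ordσ, pow_orderOf_eq_one, one_pow]

end Dih

section HLevel

variable {H : Type*} [Group H] [Finite H] {K P : Subgroup H} [K.Normal] {σ τ : H} {N h : ℕ}

theorem eq_one_of_mem_odd (hodd : Odd (Nat.card K)) {x : H} (hx : x ∈ K) (hxx : x * x = 1) :
    x = 1 := by
  have h1 : orderOf x ∣ 2 := orderOf_dvd_of_pow_eq_one (by rw [sq]; exact hxx)
  have h2 : orderOf x ∣ Nat.card K := Subgroup.orderOf_dvd_natCard K hx
  have h3 : Odd (orderOf x) := Odd.of_dvd_nat hodd h2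
  rcases (Nat.dvd_prime Nat.prime_two).1 h1 with h4 | h4
  · exact orderOf_eq_one_iff.1 h4
  · rw [h4] at h3; exact absurd h3 (by decide)

/-- the image of the dihedral structure in the quotient by the normal 2-complement. -/
theorem Dih.quot (D : Dih P σ τ N) (hc : K.IsComplement' P) :
    Dih (⊤ : Subgroup (H ⧸ K)) (QuotientGroup.mk' K σ) (QuotientGroup.mk' K τ) N := by
  have hinj : Function.Injective ((QuotientGroup.mk' K).comp P.subtype) := by
    rw [injective_iff_map_eq_one]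
    intro p hp
    have h1 : (p : H) ∈ K := by
      rw [← QuotientGroup.eq_one_iff]; exact hp
    have h2 : (p : H) ∈ K ⊓ P := ⟨h1, p.2⟩
    rw [hc.disjoint.eq_bot] at h2
    exact Subtype.ext (Subgroup.mem_bot.1 h2)
  have hord : ∀ x (hx : x ∈ P), orderOf (QuotientGroup.mk' K x) = orderOf x := by
    intro x hx
    have := orderOf_injective _ hinj (⟨x, hx⟩ : P)
    rw [Subgroup.orderOf_mk] at this
    exact this
  refine ⟨Subgroup.mem_top _, Subgroup.mem_top _, ?_, ?_, ?_, ?_, ?_⟩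
  · rw [hord σ D.σ_mem, D.ordσ]
  · rw [hord τ D.τ_mem, D.ordτ]
  · rw [← map_inv, ← map_mul, ← map_mul, D.rel, map_inv]
  · intro q _
    obtain ⟨x, rfl⟩ := QuotientGroup.mk'_surjective K q
    obtain ⟨⟨⟨k, hk⟩, ⟨p, hp⟩⟩, hkp⟩ := hc.2 x
    have hkp' : k * p = x := hkp
    have hk1 : QuotientGroup.mk' K k = 1 := (QuotientGroup.eq_one_iff k).2 hk
    have h1 : QuotientGroup.mk' K x = QuotientGroup.mk' K p := by
      rw [← hkp', map_mul, hk1, one_mul]
    obtain ⟨a, h2 | h2⟩ := D.cases p hp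
    · exact ⟨a, Or.inl (by rw [h1, h2, map_pow])⟩
    · exact ⟨a, Or.inr (by rw [h1, h2, map_mul, map_pow])⟩
  · rw [Subgroup.card_top, ← D.card, ← hc.symm.index_eq_card]
    rfl

theorem Dih.invol_not_mem (D : Dih P σ τ N) (hc : K.IsComplement' P) (hodd : Odd (Nat.card K))
    (hN : N = 2 * h) (hh : 0 < h) (hcen : ∀ x : H, x * σ ^ h = σ ^ h * x) {s : H}
    (hs : orderOf s = 2) (hsJ : s ≠ σ ^ h) :
    QuotientGroup.mk' K s ∉ Subgroup.zpowers (QuotientGroup.mk' K σ) := by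
  intro hmem
  obtain ⟨hss, hs1⟩ := Cfsg.Agent.Lib.Helper11.orderOf_two_iff.1 hs
  have hJJ : σ ^ h * σ ^ h = 1 := by
    rw [← pow_add, ← two_mul, ← hN, ← D.ordσ, pow_orderOf_eq_one]
  have h1 : QuotientGroup.mk' K s * QuotientGroup.mk' K s = 1 := by
    rw [← map_mul, hss, map_one]
  rcases (D.quot hc).sq_one_cases hN hh hmem h1 with h2 | h2
  · exact hs1 (eq_one_of_mem_odd hodd ((QuotientGroup.eq_one_iff s).1 h2) hss)
  · apply hsJ
    have h3 : s * σ ^ h ∈ K := by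
      rw [← QuotientGroup.eq_one_iff]
      show QuotientGroup.mk' K (s * σ ^ h) = 1
      rw [map_mul, h2, ← map_pow, ← map_mul, hJJ, map_one]
    have h4 : s * σ ^ h * (s * σ ^ h) = 1 := by
      calc s * σ ^ h * (s * σ ^ h) = s * (σ ^ h * s) * σ ^ h := by group
        _ = s * (s * σ ^ h) * σ ^ h := by rw [hcen s]
        _ = (s * s) * (σ ^ h * σ ^ h) := by group
        _ = 1 := by rw [hss, hJJ, one_mul]
    have h5 := eq_one_of_mem_odd hodd h3 h4
    calc s = s * σ ^ h * σ ^ h := by rw [mul_assoc, hJJ, mul_one]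
      _ = σ ^ h := by rw [h5, one_mul]

/-- the main count. -/
theorem Dih.sum_theta (D : Dih P σ τ N) (hc : K.IsComplement' P) (hodd : Odd (Nat.card K))
    (hN : N = 2 * h) (hh : 2 ≤ h) (hcen : ∀ x : H, x * σ ^ h = σ ^ h * x)
    (I : Finset H) (hI : ∀ s, s ∈ I ↔ orderOf s = 2 ∧ s ≠ σ ^ h) {ζ : ℂ}
    (hζ : IsPrimitiveRoot ζ N) (θ : H → ℂ)
    (hθ : ∀ (w : H) (l : ℕ), QuotientGroup.mk' K w = (QuotientGroup.mk' K σ) ^ l →
      θ w = 2 - ζ ^ l - (ζ ^ l)⁻¹) :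
    ∑ s ∈ I, ∑ s' ∈ I, θ (s * s') = 2 * (I.card : ℂ) ^ 2 := by
  classical
  have DQ := D.quot hc
  have hNpos : 0 < N := by omega
  have hζ0 : ζ ≠ 0 := hζ.ne_zero hNpos.ne'
  have hex : ∀ s : H, ∃ a : ℕ, s ∈ I →
      QuotientGroup.mk' K s = (QuotientGroup.mk' K σ) ^ a * QuotientGroup.mk' K τ := by
    intro s
    by_cases hs : s ∈ I
    · obtain ⟨a, ha⟩ := DQ.not_mem_form (Subgroup.mem_top _)
        (D.invol_not_mem hc hodd hN (by omega) hcen ((hI s).1 hs).1 ((hI s).1 hs).2)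
      exact ⟨a, fun _ => ha⟩
    · exact ⟨0, fun h => absurd h hs⟩
  choose a ha using hex
  have key1 : ∀ s ∈ I, ∀ s' ∈ I,
      θ (s * s') = 2 - ζ ^ a s * (ζ ^ a s')⁻¹ - (ζ ^ a s)⁻¹ * ζ ^ a s' := by
    intro s hs s' hs'
    rw [hθ (s * s') (a s + (N - 1) * a s') (by
      rw [map_mul, ha s hs, ha s' hs', DQ.mul_refl hNpos])]
    have e : ζ ^ (a s + (N - 1) * a s') = ζ ^ a s * (ζ ^ a s')⁻¹ := by
      rw [pow_add]
      congr 1
      apply eq_inv_of_mul_eq_one_left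
      rw [← pow_add]
      have : (N - 1) * a s' + a s' = N * a s' := by
        obtain ⟨m, rfl⟩ : ∃ m, N = m + 1 := ⟨N - 1, by omega⟩
        simp; ring
      rw [this, pow_mul, hζ.pow_eq_one, one_pow]
    rw [e, mul_inv, inv_inv]
  have hconjI : ∀ s, s ∈ I → σ * s * σ⁻¹ ∈ I := by
    intro s hs
    rw [hI] at hs ⊢
    refine ⟨by rw [orderOf_conj_eq]; exact hs.1, ?_⟩
    intro he
    apply hs.2
    have : s = σ⁻¹ * (σ * s * σ⁻¹) * σ := by group
    rw [this, he]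
    have h1 := hcen σ⁻¹
    rw [h1]; group
  have shift : ∀ s ∈ I, ζ ^ a (σ * s * σ⁻¹) = ζ ^ 2 * ζ ^ a s := by
    intro s hs
    have h1 := ha _ (hconjI s hs)
    rw [map_mul, map_mul, map_inv, ha s hs] at h1
    have h2 := DQ.conj_pow 1 (a s)
    rw [pow_one] at h2
    rw [h2] at h1
    have h3 := mul_right_cancel h1
    have h4 : a s + 2 * 1 ≡ a (σ * s * σ⁻¹) [MOD N] := by
      rw [← DQ.ordσ]; exact pow_eq_pow_iff_modEq.1 h3
    have h5 : ζ ^ (a s + 2 * 1) = ζ ^ a (σ * s * σ⁻¹) := by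
      have h6 : (a s + 2 * 1) % N = a (σ * s * σ⁻¹) % N := h4
      rw [← pow_mod_orderOf ζ (a s + 2 * 1), ← pow_mod_orderOf ζ (a (σ * s * σ⁻¹)),
        ← hζ.eq_orderOf, h6]
    rw [← h5, pow_add]; ring
  have hsum0 : ∑ s ∈ I, ζ ^ a s = 0 := by
    have h1 : ∑ s ∈ I, ζ ^ a (σ * s * σ⁻¹) = ∑ s ∈ I, ζ ^ a s := by
      apply Finset.sum_bij (fun s _ => σ * s * σ⁻¹) hconjI
      · intro s _ s' _ he
        exact (MulAut.conj σ).injective he
      · intro s hs
        refine ⟨σ⁻¹ * s * σ, ?_, by group⟩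
        rw [hI] at hs ⊢
        refine ⟨?_, ?_⟩
        · have := orderOf_conj_eq σ⁻¹ s
          rw [inv_inv] at this
          rw [this]; exact hs.1
        · intro he
          apply hs.2
          have : s = σ * (σ⁻¹ * s * σ) * σ⁻¹ := by group
          rw [this, he, hcen σ]; group
      · intro s _; rfl
    rw [Finset.sum_congr rfl shift, ← Finset.mul_sum] at h1
    have h2 : ζ ^ 2 ≠ 1 := by
      intro h3
      have := Nat.le_of_dvd (by norm_num) ((hζ.pow_eq_one_iff_dvd 2).1 h3)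
      omega
    have h3 : (ζ ^ 2 - 1) * ∑ s ∈ I, ζ ^ a s = 0 := by linear_combination h1
    exact (mul_eq_zero.1 h3).resolve_left (sub_ne_zero.2 h2)
  have e1 : ∀ s ∈ I, ∑ s' ∈ I, θ (s * s')
      = 2 * (I.card : ℂ) - ζ ^ a s * ∑ s' ∈ I, (ζ ^ a s')⁻¹ := by
    intro s hs
    rw [Finset.sum_congr rfl (key1 s hs), Finset.sum_sub_distrib, Finset.sum_sub_distrib,
      ← Finset.mul_sum, ← Finset.mul_sum, hsum0]
    simp
    ring
  have e2 : ∑ x ∈ I, ζ ^ a x * ∑ s' ∈ I, (ζ ^ a s')⁻¹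
      = (∑ x ∈ I, ζ ^ a x) * ∑ s' ∈ I, (ζ ^ a s')⁻¹ := (Finset.sum_mul _ _ _).symm
  rw [Finset.sum_congr rfl e1, Finset.sum_sub_distrib, e2, hsum0]
  simp
  ring

theorem Dih.στ_not_mem {G : Type*} [Group G] {P : Subgroup G} {σ τ : G} {N : ℕ}
    (D : Dih P σ τ N) (hN : 3 ≤ N) : σ * τ ∉ Subgroup.zpowers σ := by
  intro h
  apply D.τ_not_mem hN
  have : τ = σ⁻¹ * (σ * τ) := by group
  rw [this]
  exact Subgroup.mul_mem _ (Subgroup.inv_mem _ (Subgroup.mem_zpowers σ)) h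

theorem Dih.not_conj {G : Type*} [Group G] {σ τ : G} {N h : ℕ}
    (D : Dih (⊤ : Subgroup G) σ τ N) (hN : N = 2 * h) (q : G) : q * τ * q⁻¹ ≠ σ * τ := by
  intro he
  have key : ∀ b : ℕ, σ ^ b * τ * (σ ^ b)⁻¹ ≠ σ * τ := by
    intro b hb
    have h1 := D.conj_pow b 0
    rw [pow_zero, one_mul, hb] at h1
    have h2 : σ ^ 1 = σ ^ (0 + 2 * b) := by rw [pow_one]; exact mul_right_cancel h1
    have h3 : 1 ≡ 0 + 2 * b [MOD N] := by
      rw [← D.ordσ]; exact pow_eq_pow_iff_modEq.1 h2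
    have h4 : (1 : ℕ) ≡ 0 + 2 * b [MOD 2] := h3.of_dvd ⟨h, hN⟩
    have h5 : 1 % 2 = (0 + 2 * b) % 2 := h4
    omega
  obtain ⟨b, rfl | rfl⟩ := D.cases q (Subgroup.mem_top _)
  · exact key b he
  · apply key b
    rw [← he]
    have : σ ^ b * τ * τ * (σ ^ b * τ)⁻¹ = σ ^ b * (τ * τ) * τ⁻¹ * (σ ^ b)⁻¹ := by group
    rw [this, D.ττ, D.τinv]; group

theorem Dih.card_invol (D : Dih P σ τ N) (hc : K.IsComplement' P) (hodd : Odd (Nat.card K))
    (hP2 : IsPGroup 2 P) (hN : N = 2 * h) (hh : 2 ≤ h) (hcen : ∀ x : H, x * σ ^ h = σ ^ h * x)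
    (I : Finset H) (hI : ∀ s, s ∈ I ↔ orderOf s = 2 ∧ s ≠ σ ^ h) :
    (I.card : ℚ) = (Nat.card H : ℚ) / Nat.card (Subgroup.centralizer ({τ} : Set H))
      + (Nat.card H : ℚ) / Nat.card (Subgroup.centralizer ({σ * τ} : Set H)) := by
  classical
  have := Fintype.ofFinite H
  have DQ := D.quot hc
  have hN3 : 3 ≤ N := by omega
  have hh0 : 0 < h := by omega
  have hJmem : σ ^ h ∈ Subgroup.zpowers σ := Subgroup.pow_mem _ (Subgroup.mem_zpowers σ) h
  have hidx : ¬ 2 ∣ P.index := by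
    rw [hc.index_eq_card]
    exact fun h2 => (Nat.not_even_iff_odd.2 hodd) (even_iff_two_dvd.2 h2)
  obtain ⟨S, hS⟩ : ∃ S : Sylow 2 H, (S : Subgroup H) = P := ⟨hP2.toSylow hidx, rfl⟩
  have hconjJ : ∀ (g x : H), g * x * g⁻¹ = σ ^ h → x = σ ^ h := by
    intro g x he
    have : x = g⁻¹ * (g * x * g⁻¹) * g := by group
    rw [this, he, hcen g⁻¹]; group
  have hστP : σ * τ ∈ P := P.mul_mem D.σ_mem D.τ_mem
  have hστo : orderOf (σ * τ) = 2 := by
    apply Cfsg.Agent.Lib.Helper11.orderOf_two_iff.2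
    refine ⟨D.sq_of_not_mem hστP (D.στ_not_mem hN3), ?_⟩
    intro h1
    exact D.στ_not_mem hN3 (h1 ▸ Subgroup.one_mem _)
  have hunion : I = Finset.univ.image (fun g : H => g * τ * g⁻¹)
      ∪ Finset.univ.image (fun g : H => g * (σ * τ) * g⁻¹) := by
    ext s
    simp only [Finset.mem_union, Finset.mem_image, Finset.mem_univ, true_and, hI]
    constructor
    · rintro ⟨hs, hsJ⟩
      obtain ⟨k, hk⟩ := exists_conj_mem_sylow S
        (isPGroup_zpowers_of_orderOf (x := s) (k := 1) (by rw [hs, pow_one]))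
      have h1 : k * s * k⁻¹ ∈ P := hS ▸ hk s (Subgroup.mem_zpowers s)
      have h2 : orderOf (k * s * k⁻¹) = 2 := by rw [orderOf_conj_eq, hs]
      have h3 : k * s * k⁻¹ ∉ Subgroup.zpowers σ := by
        rcases D.invol_cases hN hh0 h1 h2 with h4 | h4
        · exact absurd (hconjJ k s h4) hsJ
        · exact h4
      obtain ⟨a, ha⟩ := D.not_mem_form h1 h3
      have hs' : s = k⁻¹ * (σ ^ a * τ) * k := by rw [← ha]; group
      rcases Nat.even_or_odd' a with ⟨b, hb | hb⟩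
      · left
        refine ⟨k⁻¹ * σ ^ b, ?_⟩
        have h5 := D.conj_pow b 0
        rw [pow_zero, one_mul, zero_add, ← hb] at h5
        rw [hs', ← h5]; group
      · right
        refine ⟨k⁻¹ * σ ^ b, ?_⟩
        have h5 := D.conj_pow b 1
        rw [pow_one, add_comm 1, ← hb] at h5
        rw [hs', ← h5]; group
    · rintro (⟨g, rfl⟩ | ⟨g, rfl⟩)
      · refine ⟨by rw [orderOf_conj_eq, D.ordτ], ?_⟩
        intro he
        exact D.τ_not_mem hN3 ((hconjJ g τ he) ▸ hJmem)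
      · refine ⟨by rw [orderOf_conj_eq, hστo], ?_⟩
        intro he
        exact D.στ_not_mem hN3 ((hconjJ g _ he) ▸ hJmem)
  have hdisj : Disjoint (Finset.univ.image (fun g : H => g * τ * g⁻¹))
      (Finset.univ.image (fun g : H => g * (σ * τ) * g⁻¹)) := by
    rw [Finset.disjoint_left]
    intro s h1 h2
    obtain ⟨g, -, rfl⟩ := Finset.mem_image.1 h1
    obtain ⟨g', -, he⟩ := Finset.mem_image.1 h2
    apply DQ.not_conj hN (QuotientGroup.mk' K (g'⁻¹ * g))
    rw [← map_inv, ← map_mul, ← map_mul, ← map_mul]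
    congr 1
    have : g'⁻¹ * g * τ * (g'⁻¹ * g)⁻¹ = g'⁻¹ * (g * τ * g⁻¹) * g' := by group
    rw [this, ← he]; group
  rw [hunion, Finset.card_union_of_disjoint hdisj]
  have c1 := card_conj_image τ
  have c2 := card_conj_image (σ * τ)
  have p1 : (Nat.card (Subgroup.centralizer ({τ} : Set H)) : ℚ) ≠ 0 := by
    exact_mod_cast Nat.card_pos.ne'
  have p2 : (Nat.card (Subgroup.centralizer ({σ * τ} : Set H)) : ℚ) ≠ 0 := by
    exact_mod_cast Nat.card_pos.ne'
  have c1' : (Nat.card H : ℚ) / Nat.card (Subgroup.centralizer ({τ} : Set H))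
      = ((Finset.univ.image (fun g : H => g * τ * g⁻¹)).card : ℚ) := by
    rw [← c1]; push_cast; field_simp
  have c2' : (Nat.card H : ℚ) / Nat.card (Subgroup.centralizer ({σ * τ} : Set H))
      = ((Finset.univ.image (fun g : H => g * (σ * τ) * g⁻¹)).card : ℚ) := by
    rw [← c2]; push_cast; field_simp
  rw [c1', c2']
  push_cast
  ring

end HLevel

end Cfsg.Agent.Lib.Helper25
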