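import Cfsg.Agent.Lib.Helper25.DihCount

set_option autoImplicit false

/-! A double count for products of two involutions in a group with one class of involutions. -/

namespace Cfsg.Agent.Lib.Helper25

variable {G : Type*} [Group G] [Fintype G] [DecidableEq G]

theorem sum_invol_zpowers (Θ : G → ℂ) (hodd : ∀ w, Odd (orderOf w) → Θ w = 0) (w : G) :
    ∑ z ∈ Finset.univ.filter (fun z : G => orderOf z = 2),
      (if z ∈ Subgroup.zpowers w then Θ w else 0) = Θ w := by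
  by_cases ho : Odd (orderOf w)
  · rw [hodd w ho]; simp
  · rw [Nat.not_odd_iff_even] at ho
    obtain ⟨m, hm⟩ := ho
    have hpos : 0 < orderOf w := orderOf_pos w
    have hm0 : m ≠ 0 := by omega
    have hz : orderOf (w ^ m) = 2 := by
      rw [orderOf_pow_of_dvd hm0 ⟨2, by omega⟩, hm]
      have : m + m = 2 * m := by ring
      rw [this]
      exact Nat.mul_div_cancel 2 (by omega)
    rw [Finset.sum_eq_single (w ^ m)]
    · rw [if_pos (Subgroup.pow_mem _ (Subgroup.mem_zpowers w) m)]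
    · intro z hz' hne
      rw [if_neg]
      intro hmem
      apply hne
      exact Cfsg.Agent.Lib.Helper11.eq_of_orderOf_two_of_mem_cyclic (Subgroup.zpowers w) hmem
        (Subgroup.pow_mem _ (Subgroup.mem_zpowers w) m) (Finset.mem_filter.1 hz').2 hz
    · intro h
      exfalso
      apply h
      rw [Finset.mem_filter]
      exact ⟨Finset.mem_univ _, hz⟩

theorem conj_mem_zpowers_iff (g z w : G) :
    g * z * g⁻¹ ∈ Subgroup.zpowers (g * w * g⁻¹) ↔ z ∈ Subgroup.zpowers w := by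
  constructor
  · rintro ⟨k, hk⟩
    refine ⟨k, ?_⟩
    have h1 : (g * w * g⁻¹) ^ k = g * w ^ k * g⁻¹ := conj_zpow
    have h2 : g * w ^ k * g⁻¹ = g * z * g⁻¹ := by rw [← h1]; exact hk
    exact mul_left_cancel (mul_right_cancel h2)
  · rintro ⟨k, rfl⟩
    refine ⟨k, ?_⟩
    show (g * w * g⁻¹) ^ k = g * w ^ k * g⁻¹
    exact conj_zpow

theorem double_count {J : G} (hJ : orderOf J = 2) (hone : ∀ t : G, orderOf t = 2 → IsConj J t)
    (Θ : G → ℂ) (hcl : ∀ g x, Θ (g * x * g⁻¹) = Θ x) (hodd : ∀ w, Odd (orderOf w) → Θ w = 0) :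
    ∑ s ∈ Finset.univ.filter (fun z : G => orderOf z = 2), Θ (J * s)
      = ∑ s ∈ Finset.univ.filter (fun z : G => orderOf z = 2),
          ∑ s' ∈ Finset.univ.filter (fun z : G => orderOf z = 2),
            (if J ∈ Subgroup.zpowers (s * s') then Θ (s * s') else 0) := by
  obtain ⟨Inv, hInv⟩ : ∃ Inv, Inv = Finset.univ.filter (fun z : G => orderOf z = 2) := ⟨_, rfl⟩
  rw [← hInv]
  have hmem : ∀ z, z ∈ Inv ↔ orderOf z = 2 := by intro z; rw [hInv]; simp
  have hst : ∀ (g : G) (i : G), i ∈ Inv ↔ (MulAut.conj g).toEquiv i ∈ Inv := by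
    intro g i
    rw [hmem, hmem]
    show _ ↔ orderOf (g * i * g⁻¹) = 2
    rw [orderOf_conj_eq]
  have inv1 : ∀ g z : G, ∑ s ∈ Inv, Θ (z * s) = ∑ s ∈ Inv, Θ (g * z * g⁻¹ * s) := by
    intro g z
    apply Finset.sum_equiv (MulAut.conj g).toEquiv (hst g)
    intro s _
    show Θ (z * s) = Θ (g * z * g⁻¹ * (g * s * g⁻¹))
    have : g * z * g⁻¹ * (g * s * g⁻¹) = g * (z * s) * g⁻¹ := by group
    rw [this, hcl]
  have inv2 : ∀ g z : G,
      ∑ s ∈ Inv, ∑ s' ∈ Inv, (if z ∈ Subgroup.zpowers (s * s') then Θ (s * s') else 0)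
      = ∑ s ∈ Inv, ∑ s' ∈ Inv,
          (if g * z * g⁻¹ ∈ Subgroup.zpowers (s * s') then Θ (s * s') else 0) := by
    intro g z
    apply Finset.sum_equiv (MulAut.conj g).toEquiv (hst g)
    intro s _
    apply Finset.sum_equiv (MulAut.conj g).toEquiv (hst g)
    intro s' _
    show _ = if g * z * g⁻¹ ∈ Subgroup.zpowers (g * s * g⁻¹ * (g * s' * g⁻¹))
      then Θ (g * s * g⁻¹ * (g * s' * g⁻¹)) else 0
    have : g * s * g⁻¹ * (g * s' * g⁻¹) = g * (s * s') * g⁻¹ := by group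
    rw [this, hcl]
    simp only [conj_mem_zpowers_iff]
  have tot : ∑ z ∈ Inv, ∑ s ∈ Inv, Θ (z * s)
      = ∑ z ∈ Inv, ∑ s ∈ Inv, ∑ s' ∈ Inv,
          (if z ∈ Subgroup.zpowers (s * s') then Θ (s * s') else 0) := by
    rw [Finset.sum_comm]
    conv_rhs =>
      rw [Finset.sum_comm]
      arg 2; ext s
      rw [Finset.sum_comm]
    rw [Finset.sum_comm]
    apply Finset.sum_congr rfl; intro s _
    apply Finset.sum_congr rfl; intro s' _
    rw [hInv, sum_invol_zpowers Θ hodd]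
  have c1 : ∀ z ∈ Inv, ∑ s ∈ Inv, Θ (z * s) = ∑ s ∈ Inv, Θ (J * s) := by
    intro z hz
    obtain ⟨g, hg⟩ := isConj_iff.1 (hone z ((hmem z).1 hz))
    rw [← hg, ← inv1 g J]
  have c2 : ∀ z ∈ Inv,
      ∑ s ∈ Inv, ∑ s' ∈ Inv, (if z ∈ Subgroup.zpowers (s * s') then Θ (s * s') else 0)
      = ∑ s ∈ Inv, ∑ s' ∈ Inv, (if J ∈ Subgroup.zpowers (s * s') then Θ (s * s') else 0) := by
    intro z hz
    obtain ⟨g, hg⟩ := isConj_iff.1 (hone z ((hmem z).1 hz))
    rw [← hg, ← inv2 g J]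
  rw [Finset.sum_congr rfl c1, Finset.sum_congr rfl c2, Finset.sum_const, Finset.sum_const,
    nsmul_eq_mul, nsmul_eq_mul] at tot
  have hcard : (Inv.card : ℂ) ≠ 0 := by
    have : 0 < Inv.card := Finset.card_pos.2 ⟨J, (hmem J).2 hJ⟩
    exact_mod_cast this.ne'
  exact mul_left_cancel₀ hcard tot

end Cfsg.Agent.Lib.Helper25
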