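import Cfsg.Agent.Lib.Helper25.DihOrder6
import Cfsg.Agent.Lib.Helper28.BigSub
import Cfsg.Agent.Lib.Helper78.DefectZero
import Cfsg.Agent.S0107

set_option autoImplicit false

/-! Perfect groups with an involution whose centralizer is dihedral of order 8. -/

open Cfsg

namespace Cfsg.Agent.Lib.Helper25

theorem d8_arith (g x g' : ℕ) (d : ℤ) (hd : d = 1 ∨ d = -1) (hx : 0 < x) (hxodd : Odd x)
    (hg : g = 8 * g') (hg' : Odd g')
    (h : (g : ℤ) * ((x : ℤ) - d) ^ 2 = 256 * x * (x + d)) : g = 168 ∨ g = 360 := by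
  obtain ⟨a, ha⟩ : ∃ a : ℤ, a = (x : ℤ) - d := ⟨_, rfl⟩
  have hxa : (x : ℤ) = a + d := by rw [ha]; ring
  have hdd : d * d = 1 := by rcases hd with h | h <;> rw [h] <;> norm_num
  rw [← ha, hxa] at h
  have hdvd : a ∣ 512 := by
    refine ⟨(g : ℤ) * a - 256 * a - 768 * d, ?_⟩
    linear_combination (-1 : ℤ) * h - 512 * hdd
  have hdvd' : a.natAbs ∣ 2 ^ 9 := by
    have := Int.natAbs_dvd_natAbs.2 hdvd
    simpa using this
  obtain ⟨k, hk, hak⟩ := (Nat.dvd_prime_pow Nat.prime_two).1 hdvd'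
  obtain ⟨j, hj⟩ := hg'
  obtain ⟨i, hi⟩ := hxodd
  have hgz : (g : ℤ) = 8 * (2 * j + 1) := by rw [hg, hj]; push_cast; ring
  have hxz : (x : ℤ) = 2 * i + 1 := by rw [hi]; push_cast; ring
  have hxpos : (0 : ℤ) < x := by exact_mod_cast hx
  have hfin : (g : ℤ) = 168 ∨ (g : ℤ) = 360 := by
    interval_cases k <;> rcases Int.natAbs_eq a with h1 | h1 <;> rw [hak] at h1 <;>
      norm_num at h1 <;> subst h1 <;> rcases hd with rfl | rfl <;> norm_num at h <;> omega
  rcases hfin with h | h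
  · left; exact_mod_cast h
  · right; exact_mod_cast h

variable {G : Type*} [Group G] [Finite G]

theorem d8_center (x : DihedralGroup 4) (h : ∀ y, x * y = y * x) (h1 : x ≠ 1) :
    x = DihedralGroup.r 2 := by
  revert x; decide

theorem d8_setup (t : G) (ht : orderOf t = 2)
    (e : Subgroup.centralizer ({t} : Set G) ≃* DihedralGroup 4) :
    ∃ (P : Sylow 2 G) (σ τ : G), (P : Subgroup G) = Subgroup.centralizer ({t} : Set G) ∧
      Dih (P : Subgroup G) σ τ 4 ∧ σ ^ 2 = t := by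
  obtain ⟨C, hC⟩ : ∃ C, C = Subgroup.centralizer ({t} : Set G) := ⟨_, rfl⟩
  rw [← hC] at e ⊢
  have hCmem : ∀ x, x ∈ C ↔ x * t = t * x := by
    intro x; rw [hC, Subgroup.mem_centralizer_singleton_iff]
  have hcard : Nat.card C = 2 ^ 3 := by
    rw [Nat.card_congr e.toEquiv, DihedralGroup.nat_card]; norm_num
  have hCp : IsPGroup 2 C := IsPGroup.of_card hcard
  obtain ⟨P, hP⟩ := hCp.exists_le_sylow
  have ht1 : t ≠ 1 := (Cfsg.Agent.Lib.Helper11.orderOf_two_iff.1 ht).2
  have htC : t ∈ C := (hCmem t).2 rfl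
  have hcen : ∀ z : C, (∀ y : C, z * y = y * z) → z ≠ 1 → z = ⟨t, htC⟩ := by
    intro z hz hz1
    have key : ∀ w : C, (∀ y : C, w * y = y * w) → w ≠ 1 → e w = DihedralGroup.r 2 := by
      intro w hw hw1
      apply d8_center
      · intro y
        obtain ⟨y', rfl⟩ := e.surjective y
        rw [← map_mul, ← map_mul, hw]
      · intro h
        apply hw1
        exact e.injective (by rw [h, map_one])
    apply e.injective
    rw [key z hz hz1, key ⟨t, htC⟩ _ _]
    · intro y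
      apply Subtype.ext
      exact ((hCmem y).1 y.2).symm
    · intro h
      exact ht1 (congrArg Subtype.val h)
  have hCP : C = (P : Subgroup G) := by
    apply Cfsg.Agent.Lib.Helper11.eq_of_normalizer_inf_le (p := 2) (P : Subgroup G) C P.2 hP
    intro x _ hxN
    rw [hCmem]
    have hmemC : x * t * x⁻¹ ∈ C := (Subgroup.mem_normalizer_iff.1 hxN t).1 htC
    have h1 := hcen ⟨x * t * x⁻¹, hmemC⟩ ?_ ?_
    · have h2 : x * t * x⁻¹ = t := congrArg Subtype.val h1
      calc x * t = x * t * x⁻¹ * x := by group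
        _ = t * x := by rw [h2]
    · intro y
      apply Subtype.ext
      show x * t * x⁻¹ * (y : G) = y * (x * t * x⁻¹)
      have hy' : x⁻¹ * y * x ∈ C := by
        have := (Subgroup.mem_normalizer_iff.1 (Subgroup.inv_mem _ hxN) (y : G)).1 y.2
        rwa [inv_inv] at this
      have h3 := (hCmem _).1 hy'
      calc x * t * x⁻¹ * (y : G) = x * (t * (x⁻¹ * y * x)) * x⁻¹ := by group
        _ = x * ((x⁻¹ * y * x) * t) * x⁻¹ := by rw [h3]
        _ = y * (x * t * x⁻¹) := by group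
    · intro h
      have h2 : x * t * x⁻¹ = 1 := congrArg Subtype.val h
      apply ht1
      have : t = x⁻¹ * (x * t * x⁻¹) * x := by group
      rw [this, h2]; group
  obtain ⟨σ', hσ'⟩ : ∃ σ' : C, σ' = e.symm (DihedralGroup.r 1) := ⟨_, rfl⟩
  have hσo : orderOf (σ' : G) = 4 := by
    rw [Subgroup.orderOf_coe, hσ', MulEquiv.orderOf_eq, DihedralGroup.orderOf_r_one]
  rw [hCP] at e
  obtain ⟨τ, D⟩ := exists_dih (P : Subgroup G) P.2 4 (by norm_num) e (hCP ▸ σ'.2) hσo
  refine ⟨P, σ', τ, hCP.symm, D, ?_⟩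
  have htP : t ∈ (P : Subgroup G) := hCP ▸ htC
  rcases D.invol_cases (h := 2) (by norm_num) (by norm_num) htP ht with h1 | h1
  · exact h1.symm
  · exfalso
    have h2 := D.inv_of_not_mem htP h1 (Subgroup.mem_zpowers (σ' : G))
    have h3 := (hCmem _).1 σ'.2
    rw [← h3, mul_inv_cancel_right] at h2
    have h4 : (σ' : G) ^ 2 = 1 := by
      rw [sq]
      calc (σ' : G) * σ' = σ' * (σ' : G)⁻¹ := by rw [← h2]
        _ = 1 := mul_inv_cancel _
    have h5 := orderOf_dvd_of_pow_eq_one h4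
    rw [hσo] at h5
    norm_num at h5

theorem d8_centralizer {P : Subgroup G} {σ τ : G} (D : Dih P σ τ 4)
    (hP : P = Subgroup.centralizer ({σ ^ 2} : Set G)) {x : G} (hx : x ∈ P)
    (hxA : x ∉ Subgroup.zpowers σ) :
    Nat.card (Subgroup.centralizer ({σ ^ 2, x} : Set G)) = 4 := by
  have hJ := D.ordJ (h := 2) (by norm_num) (by norm_num)
  obtain ⟨hJJ, hJ1⟩ := Cfsg.Agent.Lib.Helper11.orderOf_two_iff.1 hJ
  have hxx := D.sq_of_not_mem hx hxA
  have hx1 : x ≠ 1 := fun h => hxA (h ▸ Subgroup.one_mem _)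
  have hJx : σ ^ 2 * x = x * σ ^ 2 := (D.J_central (h := 2) (by norm_num) (by norm_num) hx).symm
  have hne : σ ^ 2 ≠ x := fun h => hxA (h ▸ Subgroup.pow_mem _ (Subgroup.mem_zpowers σ) 2)
  have h1 : Subgroup.centralizer ({σ ^ 2, x} : Set G)
      = Cfsg.Agent.Lib.Helper11.fourSub (σ ^ 2) x hJx hJJ hxx := by
    ext w
    rw [Cfsg.Agent.Lib.Helper11.mem_fourSub, Subgroup.mem_centralizer_iff]
    constructor
    · intro h
      have hwP : w ∈ P := by
        rw [hP, Subgroup.mem_centralizer_singleton_iff]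
        exact (h _ (by simp)).symm
      exact D.comm_cases (h := 2) (by norm_num) (by norm_num) hx hxA hwP (h x (by simp)).symm
    · intro h y hy
      simp only [Set.mem_insert_iff, Set.mem_singleton_iff] at hy
      rcases h with rfl | rfl | rfl | rfl <;> rcases hy with rfl | rfl
      · simp
      · simp
      · rfl
      · exact hJx.symm
      · exact hJx
      · rfl
      · rw [mul_assoc (σ ^ 2) x, ← hJx]
      · rw [← mul_assoc, ← hJx]
  rw [h1]
  exact (Cfsg.Agent.Lib.Helper11.isKleinFour_fourSub _ _ hJx hJJ hxx hJ1 hx1 hne).card_four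

end Cfsg.Agent.Lib.Helper25
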