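import Cfsg.Agent.Lib.Helper25.DihChar
import Cfsg.Agent.Lib.Helper25.DihComb
import Cfsg.Agent.S0944
import Cfsg.Agent.S0928
import Cfsg.Agent.S0914

set_option autoImplicit false

/-! The principal 2-block of a group with dihedral Sylow 2-subgroups. -/

open Cfsg
open scoped ComplexConjugate

namespace Cfsg.Agent.Lib.Helper25

variable {G : Type*} [Group G] [Finite G] {M : Ideal AlgInt}

local notation "triv" => Cfsg.Agent.Lib.Helper80.trivIrr

theorem sum_ite_mulC {I : Type*} [DecidableEq I] (S : Finset I) {a : I} (ha : a ∈ S) (c : ℂ)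
    (g : I → ℂ) : ∑ χ ∈ S, (if χ = a then c else 0) * g χ = c * g a := by
  rw [Finset.sum_eq_single a]
  · simp
  · intro b _ hb; simp [hb]
  · intro h; exact absurd ha h

theorem no_vanish (hM : IsPModular 2 M) {χ : IrrCharacter G} (hχ : χ ∈ principalBlock M G)
    (hv : ∀ t : G, orderOf t = 2 → (χ : G → ℂ) t = 0) {t0 : G} (ht0 : orderOf t0 = 2) : False := by
  have : Fact (Nat.Prime 2) := ⟨Nat.prime_two⟩
  have h1 := Cfsg.Agent.S0928.result 2 χ hv
  have hdvd := Cfsg.Agent.Lib.Helper82.isIrr_charDegree_dvd_card χ.2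
  have hpos := Cfsg.Agent.Lib.Helper82.isIrr_charDegree_pos χ.2
  have h2 : ¬ 2 ∣ Nat.card G / charDegree (χ : G → ℂ) := by
    intro h3
    have h4 : Nat.card G / charDegree (χ : G → ℂ) ≠ 0 :=
      (Nat.div_pos (Nat.le_of_dvd Nat.card_pos hdvd) hpos).ne'
    have h5 := (Nat.prime_two.dvd_iff_one_le_factorization h4).1 h3
    rw [Nat.factorization_div hdvd] at h5
    simp only [Finsupp.coe_tsub, Pi.sub_apply] at h5
    omega
  have h3 := (Cfsg.Agent.S0914.result 2 M hM χ).1 h2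
  have h4 : triv G ∈ blockOf M (χ : G → ℂ) := by
    rw [← Cfsg.Agent.Lib.Helper81.isPBlock_eq_blockOf hM
      (Cfsg.Agent.Lib.Helper80.isPBlock_principal M) hχ]
    exact Cfsg.Agent.Lib.Helper80.trivIrr_mem_principalBlock hM
  rw [h3, Set.mem_singleton_iff] at h4
  have h5 := hv t0 ht0
  rw [← h4] at h5
  simp [Cfsg.Agent.Lib.Helper80.trivIrr] at h5

/-- a character which is `±1` on one involution is odd on every involution. -/
theorem odd_val (χ : IrrCharacter G) {J t : G} (hJ : orderOf J = 2) (ht : orderOf t = 2) {e : ℤ}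
    (he : e = 1 ∨ e = -1) (hv : (χ : G → ℂ) J = e) {m : ℤ} (hm : (χ : G → ℂ) t = m) :
    1 ≤ m ^ 2 := by
  obtain ⟨a, ha, ha2⟩ := Cfsg.Agent.S0944.result χ J hJ
  obtain ⟨b, hb, hb2⟩ := Cfsg.Agent.S0944.result χ t ht
  have h1 : a = e := by
    have : (a : ℂ) = (e : ℂ) := by rw [← ha, hv]
    exact_mod_cast this
  have h2 : b = m := by
    have : (b : ℂ) = (m : ℂ) := by rw [← hb, hm]
    exact_mod_cast this
  subst h1 h2
  have h3 : b ≠ 0 := by
    rintro rfl
    rcases he with h | h <;> rw [h] at ha2 <;> omega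
  have : 0 < b ^ 2 := by positivity
  omega

theorem dih_block (hM : IsPModular 2 M) {n : ℕ} (hn : 3 ≤ n) {P : Sylow 2 G}
    (hP : Nonempty ((P : Subgroup G) ≃* DihedralGroup (2 ^ (n - 1)))) {σ τ : G}
    (D : Dih (P : Subgroup G) σ τ (2 ^ (n - 1))) {ζ : ℂ} (hζ : IsPrimitiveRoot ζ (2 ^ (n - 1))) :
    ∃ (x1 x2 x3 : IrrCharacter G) (y : ℕ → IrrCharacter G) (d1 d2 d3 : ℤ),
      (d1 = 1 ∨ d1 = -1) ∧ (d2 = 1 ∨ d2 = -1) ∧ (d3 = 1 ∨ d3 = -1) ∧
      x1 ≠ triv G ∧ x2 ≠ triv G ∧ x3 ≠ triv G ∧ x1 ≠ x2 ∧ x1 ≠ x3 ∧ x2 ≠ x3 ∧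
      (∀ j, 0 < j → j < 2 ^ (n - 2) → y j ≠ triv G ∧ y j ≠ x1 ∧ y j ≠ x2 ∧ y j ≠ x3) ∧
      (∀ i j, 0 < i → i < 2 ^ (n - 2) → 0 < j → j < 2 ^ (n - 2) → y i = y j → i = j) ∧
      (∀ χ, χ ∈ principalBlock M G ↔ (χ = triv G ∨ χ = x1 ∨ χ = x2 ∨ χ = x3 ∨
        ∃ j, 0 < j ∧ j < 2 ^ (n - 2) ∧ χ = y j)) ∧
      (∀ l, 0 < l → l < 2 ^ (n - 1) → (x1 : G → ℂ) (σ ^ l) = d1 ∧
        (x2 : G → ℂ) (σ ^ l) = d2 * (-1) ^ (l + 1) ∧ (x3 : G → ℂ) (σ ^ l) = d3 * (-1) ^ (l + 1) ∧
        ∀ j, 0 < j → j < 2 ^ (n - 2) →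
          (y j : G → ℂ) (σ ^ l) = d1 * (ζ ^ (j * l) + (ζ ^ (j * l))⁻¹)) ∧
      (∀ ρ : G, Odd (orderOf ρ) →
        1 + d1 * (x1 : G → ℂ) ρ + d2 * (x2 : G → ℂ) ρ + d3 * (x3 : G → ℂ) ρ = 0 ∧
        ∀ j, 0 < j → j < 2 ^ (n - 2) → 1 + d1 * (x1 : G → ℂ) ρ - d1 * (y j : G → ℂ) ρ = 0) := by
  classical
  have := Fintype.ofFinite G
  have : Finite (IrrCharacter G) := Cfsg.Agent.Lib.Helper20.finite_irrCharacter
  have : Fintype (IrrCharacter G) := Fintype.ofFinite _
  have hch : ∀ χ : IrrCharacter G, IsCharacter G (χ : G → ℂ) := fun χ =>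
    Cfsg.Agent.Lib.Helper20.isCharacter_of_isIrrCharacter χ.2
  have gram0 := D.gram hM hn hP
  obtain ⟨N, hNdef⟩ : ∃ N, N = 2 ^ (n - 1) := ⟨_, rfl⟩
  obtain ⟨h, hhdef⟩ : ∃ h, h = 2 ^ (n - 2) := ⟨_, rfl⟩
  have hN : N = 2 * h := by
    rw [hNdef, hhdef, ← pow_succ']; congr 1; omega
  have hh2 : h = 2 ∨ 4 ≤ h := by
    rcases Nat.lt_or_ge n 4 with h3 | h4
    · left
      have : n = 3 := by omega
      subst this; rw [hhdef]; norm_num
    · right
      rw [hhdef]
      calc 4 = 2 ^ 2 := by norm_num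
        _ ≤ 2 ^ (n - 2) := Nat.pow_le_pow_right (by norm_num) (by omega)
  have hh : 0 < h := by omega
  have hNpos : 0 < N := by omega
  have hNc : (N : ℂ) ≠ 0 := by exact_mod_cast hNpos.ne'
  rw [← hNdef] at D hζ gram0
  rw [← hNdef, ← hhdef]
  have hσN : σ ^ N = 1 := by rw [← D.ordσ, pow_orderOf_eq_one]
  have hJ := D.ordJ hN hh
  have hζ0 : ζ ≠ 0 := hζ.ne_zero hNpos.ne'
  obtain ⟨c, hc⟩ : ∃ c : ℕ → IrrCharacter G → ℂ,
      c = fun (k : ℕ) (χ : IrrCharacter G) => (χ : G → ℂ) (σ ^ k) := ⟨_, rfl⟩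
  have hck : ∀ k χ, c k χ = (χ : G → ℂ) (σ ^ k) := by intro k χ; rw [hc]
  have hex : ∀ (j : ℕ) (χ : IrrCharacter G), ∃ a : ℤ,
      ∑ k ∈ Finset.range N, c k χ * (1 - (ζ ^ j) ^ k) = (N : ℂ) * a := by
    intro j χ
    obtain ⟨n1, h1⟩ := lemmaW (hch χ) hNpos hσN (η := 1) (by simp)
    obtain ⟨n2, h2⟩ := lemmaW (hch χ) hNpos hσN (η := ζ ^ j) (by
      rw [← pow_mul, mul_comm, pow_mul, hζ.pow_eq_one, one_pow])
    refine ⟨n1 - n2, ?_⟩
    simp only [one_pow, mul_one] at h1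
    simp only [hck, mul_sub, mul_one, Finset.sum_sub_distrib]
    rw [h1, h2]; push_cast; ring
  choose α hα using hex
  obtain ⟨B, hB⟩ : ∃ B : Finset (IrrCharacter G),
      B = Finset.univ.filter (· ∈ principalBlock M G) := ⟨_, rfl⟩
  have hBmem : ∀ χ, χ ∈ B ↔ χ ∈ principalBlock M G := by
    intro χ; rw [hB]; simp
  have hgram : ∀ k ∈ Finset.range N, 0 < k → ∀ l ∈ Finset.range N, 0 < l →
      ∑ χ ∈ B, c k χ * conj (c l χ)
        = (if l = k then (N : ℂ) else 0) + (if l = N - k then (N : ℂ) else 0) := by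
    intro k hk hk0 l hl hl0
    rw [hB, ← finsum_B0_eq]
    simp only [hck]
    exact gram0 k hk hk0 l hl hl0
  have G3 : ∀ i j, 0 < i → i < N → 0 < j → j < N → ∑ χ ∈ B, α i χ * α j χ
      = 2 + (if i = j then 1 else 0) + (if i + j = N then 1 else 0) :=
    fun i j hi hiN hj hjN => gram_alpha B c hζ hNpos hgram α hα hi hiN hj hjN
  have ndvd : ∀ j, 0 < j → j < N → ¬ N ∣ j := fun j hj hjN hd => by
    have := Nat.le_of_dvd hj hd; omega
  have htriv : ∀ j, 0 < j → j < N → α j (triv G) = 1 := by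
    intro j hj hjN
    have h1 := hα j (triv G)
    simp only [hck, Cfsg.Agent.Lib.Helper80.trivIrr, one_mul, Finset.sum_sub_distrib] at h1
    rw [root_sum hζ, if_neg (ndvd j hj hjN)] at h1
    simp only [Finset.sum_const, Finset.card_range, nsmul_eq_mul, mul_one, sub_zero] at h1
    have h3 : (α j (triv G) : ℂ) = 1 :=
      mul_left_cancel₀ hNc (by rw [mul_one]; exact h1.symm)
    exact_mod_cast h3
  have hα0 : ∀ χ, α 0 χ = 0 := by
    intro χ
    have h1 := hα 0 χ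
    simp only [pow_zero, one_pow, sub_self, mul_zero, Finset.sum_const_zero] at h1
    have h3 : (α 0 χ : ℂ) = 0 := (mul_eq_zero.1 h1.symm).resolve_left hNc
    exact_mod_cast h3
  choose f hfpos hf using fun χ : IrrCharacter G => irr_degree χ
  have h2pow : ∀ l : ℕ, ∃ k' : ℕ, orderOf (σ ^ l) = 2 ^ k' := by
    intro l
    obtain ⟨i, -, hi⟩ := (Nat.dvd_prime_pow Nat.prime_two).1
      (hNdef ▸ D.ordσ ▸ orderOf_pow_dvd (x := σ) l)
    exact ⟨i, hi⟩
  have hne1 : ∀ k, 0 < k → k < N → σ ^ k ≠ 1 := by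
    intro k hk0 hk h1
    have := D.pow_inj hk hNpos (by rw [h1, pow_zero])
    omega
  have orth : ∀ g : G, Odd (orderOf g) → ∀ k ∈ Finset.range N, 0 < k →
      ∑ χ ∈ B, c k χ * (χ : G → ℂ) g = 0 := by
    intro g hg k hk hk0
    have h1 := Cfsg.Agent.Lib.Helper51.orth_pelem hM _
      (Cfsg.Agent.Lib.Helper80.isPBlock_principal (G := G) M) (h2pow k) g⁻¹ 1
      ⟨g⁻¹, one_mul _, Commute.one_left _, ⟨0, by simp⟩, by
        rw [orderOf_inv]; exact fun h2 => (Nat.not_even_iff_odd.2 hg) (even_iff_two_dvd.2 h2)⟩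
      (fun hcon => hne1 k hk0 (Finset.mem_range.1 hk) (isConj_one_left.1 hcon))
    rw [inv_inv, finsum_B0_eq, ← hB] at h1
    simp only [hck]; exact h1
  have lin : ∀ g : G, Odd (orderOf g) → ∀ j, ∑ χ ∈ B, (α j χ : ℂ) * (χ : G → ℂ) g = 0 :=
    fun g hg j => alpha_lin B c hNpos α hα (fun χ => (χ : G → ℂ) g) (orth g hg) j
  have htB : triv G ∈ B := (hBmem _).2 (Cfsg.Agent.Lib.Helper80.trivIrr_mem_principalBlock hM)
  obtain ⟨S, hS⟩ : ∃ S, S = B.erase (triv G) := ⟨_, rfl⟩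
  have hSmem : ∀ χ, χ ∈ S ↔ χ ≠ triv G ∧ χ ∈ B := by
    intro χ; rw [hS, Finset.mem_erase]
  have b1 : ∀ i j, 0 < i → i < N → 0 < j → j < N →
      ∑ χ ∈ S, α i χ * α j χ = 1 + (if i = j then 1 else 0) + (if i + j = N then 1 else 0) := by
    intro i j hi hiN hj hjN
    have h1 := G3 i j hi hiN hj hjN
    rw [← Finset.add_sum_erase B _ htB, htriv i hi hiN, htriv j hj hjN, ← hS] at h1
    linarith
  have hft : f (triv G) = 1 := by
    have h1 := hf (triv G)
    simp only [Cfsg.Agent.Lib.Helper80.trivIrr] at h1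
    exact_mod_cast h1.symm
  have b2 : ∀ j, 0 < j → j < N → ∑ χ ∈ S, α j χ * f χ = -1 := by
    intro j hj hjN
    have h1 := lin 1 (by rw [orderOf_one]; exact odd_one) j
    simp only [hf] at h1
    have h2 : ∑ χ ∈ B, α j χ * f χ = 0 := by exact_mod_cast h1
    rw [← Finset.add_sum_erase B _ htB, htriv j hj hjN, hft, ← hS] at h2
    linarith
  obtain ⟨x1, hx1S, x2, hx2S, x3, hx3S, y, d1, d2, d3, hd1, hd2, hd3, h12, h13, h23, hy, hyy, hβh⟩ :=
    dih_comb S α f N h hN hh2 b1 b2 (fun χ _ => hfpos χ)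
  -- symmetry and inversion
  have hsym : ∀ (χ : IrrCharacter G) (l : ℕ), l ≤ N → c (N - l) χ = c l χ := by
    intro χ l hl
    have hinv : (σ ^ l)⁻¹ = σ ^ (N - l) := by
      apply inv_eq_of_mul_eq_one_left
      rw [← pow_add, Nat.sub_add_cancel hl, hσN]
    rw [hck, hck, ← hinv, ← D.rel_pow l, Cfsg.Agent.Lib.Helper81.irr_classFunction χ (σ ^ l) τ]
  have cval : ∀ (χ : IrrCharacter G) (l : ℕ), 0 < l → l < N →
      (χ : G → ℂ) (σ ^ l) = - ∑ j ∈ Finset.range N, (α j χ : ℂ) * (ζ ^ j) ^ l := by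
    intro χ l hl hlN
    rw [← hck, ← hsym χ l hlN.le]
    exact alpha_inv c hζ hNpos α hα χ hl hlN
  have hζh : ζ ^ h = -1 := by
    have h1 : (ζ ^ h) ^ 2 = 1 := by rw [← pow_mul, mul_comm, ← hN, hζ.pow_eq_one]
    have h2 : ζ ^ h ≠ 1 := fun h3 => ndvd h hh (by omega) ((hζ.pow_eq_one_iff_dvd h).1 h3)
    have h4 : (ζ ^ h - 1) * (ζ ^ h + 1) = 0 := by linear_combination h1
    rcases mul_eq_zero.1 h4 with h3 | h3
    · exact absurd (sub_eq_zero.1 h3) h2
    · exact eq_neg_of_add_eq_zero_left h3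
  have swap : ∀ j l : ℕ, (ζ ^ j) ^ l = (ζ ^ l) ^ j := by
    intro j l; rw [← pow_mul, ← pow_mul, mul_comm]
  -- values of α
  have αx1 : ∀ j, 0 < j → j < N → α j x1 = d1 := by
    intro j hj hjN
    by_cases hjh : j = h
    · rw [hjh, hβh x1 hx1S, if_pos rfl, if_neg h12, if_neg h13]; ring
    · obtain ⟨-, e1, -, -, e⟩ := hy j hj hjN hjh
      rw [e x1 hx1S, if_pos rfl, if_neg (Ne.symm e1)]; ring
  have αx2 : ∀ j, j < N → α j x2 = if j = h then d2 else 0 := by
    intro j hjN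
    rcases Nat.eq_zero_or_pos j with rfl | hj
    · rw [hα0, if_neg (by omega)]
    by_cases hjh : j = h
    · rw [if_pos hjh, hjh, hβh x2 hx2S, if_neg (Ne.symm h12), if_pos rfl, if_neg h23]; ring
    · obtain ⟨-, -, e2, -, e⟩ := hy j hj hjN hjh
      rw [if_neg hjh, e x2 hx2S, if_neg (Ne.symm h12), if_neg (Ne.symm e2)]; ring
  have αx3 : ∀ j, j < N → α j x3 = if j = h then d3 else 0 := by
    intro j hjN
    rcases Nat.eq_zero_or_pos j with rfl | hj
    · rw [hα0, if_neg (by omega)]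
    by_cases hjh : j = h
    · rw [if_pos hjh, hjh, hβh x3 hx3S, if_neg (Ne.symm h13), if_neg (Ne.symm h23), if_pos rfl]
      ring
    · obtain ⟨-, -, -, e3, e⟩ := hy j hj hjN hjh
      rw [if_neg hjh, e x3 hx3S, if_neg (Ne.symm h13), if_neg (Ne.symm e3)]; ring
  have αy : ∀ i, 0 < i → i < h → ∀ j, j < N →
      α j (y i) = (if j = i then -d1 else 0) + (if j = N - i then -d1 else 0) := by
    intro i hi hih j hjN
    obtain ⟨yS, y1, y2, y3, -⟩ := hy i hi (by omega) (by omega)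
    rcases Nat.eq_zero_or_pos j with rfl | hj
    · rw [hα0, if_neg (by omega), if_neg (by omega)]; ring
    by_cases hjh : j = h
    · rw [hjh, hβh _ yS, if_neg y1, if_neg y2, if_neg y3, if_neg (by omega), if_neg (by omega)]
      ring
    · obtain ⟨-, -, -, -, e⟩ := hy j hj hjN hjh
      rw [e _ yS, if_neg y1]
      have h1 := hyy i j hi (by omega) (by omega) hj hjN hjh
      by_cases hji : j = i
      · rw [if_pos (h1.2 (Or.inl hji.symm)), if_pos hji, if_neg (by omega)]; ring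
      · by_cases hjNi : j = N - i
        · rw [if_pos (h1.2 (Or.inr (by omega))), if_neg hji, if_pos hjNi]
        · rw [if_neg hji, if_neg hjNi, if_neg]
          intro h2
          rcases h1.1 h2 with h3 | h3 <;> omega
  have single : ∀ (x : IrrCharacter G) (d : ℤ), (∀ j, j < N → α j x = if j = h then d else 0) →
      ∀ l, 0 < l → l < N → (x : G → ℂ) (σ ^ l) = d * (-1) ^ (l + 1) := by
    intro x d hx l hl hlN
    rw [cval x l hl hlN]
    have e : ∀ j ∈ Finset.range N, (α j x : ℂ) * (ζ ^ j) ^ l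
        = if j = h then (d : ℂ) * (ζ ^ h) ^ l else 0 := by
      intro j hj
      rw [hx j (Finset.mem_range.1 hj)]
      split_ifs with h1
      · rw [h1]
      · simp
    rw [Finset.sum_congr rfl e, Finset.sum_ite_eq', if_pos (Finset.mem_range.2 (by omega)), hζh]
    ring
  have v1 : ∀ l, 0 < l → l < N → (x1 : G → ℂ) (σ ^ l) = d1 := by
    intro l hl hlN
    rw [cval x1 l hl hlN]
    have e : ∀ j ∈ Finset.range N, (α j x1 : ℂ) * (ζ ^ j) ^ l
        = (d1 : ℂ) * (ζ ^ l) ^ j - (if j = 0 then (d1 : ℂ) else 0) := by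
      intro j hj
      rcases Nat.eq_zero_or_pos j with rfl | hj0
      · rw [hα0]; simp
      · rw [αx1 j hj0 (Finset.mem_range.1 hj), if_neg hj0.ne', swap]; ring
    rw [Finset.sum_congr rfl e, Finset.sum_sub_distrib, ← Finset.mul_sum, root_sum hζ,
      if_neg (ndvd l hl hlN), Finset.sum_ite_eq', if_pos (Finset.mem_range.2 hNpos)]
    ring
  have vy : ∀ i, 0 < i → i < h → ∀ l, 0 < l → l < N →
      (y i : G → ℂ) (σ ^ l) = d1 * (ζ ^ (i * l) + (ζ ^ (i * l))⁻¹) := by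
    intro i hi hih l hl hlN
    rw [cval _ l hl hlN]
    have e : ∀ j ∈ Finset.range N, (α j (y i) : ℂ) * (ζ ^ j) ^ l
        = (if j = i then -(d1 : ℂ) * (ζ ^ i) ^ l else 0)
          + (if j = N - i then -(d1 : ℂ) * (ζ ^ (N - i)) ^ l else 0) := by
      intro j hj
      rw [αy i hi hih j (Finset.mem_range.1 hj)]
      by_cases h1 : j = i
      · rw [if_pos h1, if_pos h1, if_neg (by omega), if_neg (by omega), h1]; push_cast; ring
      · by_cases h2 : j = N - i
        · rw [if_neg h1, if_neg h1, if_pos h2, if_pos h2, h2]; push_cast; ring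
        · rw [if_neg h1, if_neg h1, if_neg h2, if_neg h2]; simp
    rw [Finset.sum_congr rfl e, Finset.sum_add_distrib, Finset.sum_ite_eq', Finset.sum_ite_eq',
      if_pos (Finset.mem_range.2 (by omega)), if_pos (Finset.mem_range.2 (by omega))]
    have e2 : (ζ ^ (N - i)) ^ l = (ζ ^ (i * l))⁻¹ := by
      apply eq_inv_of_mul_eq_one_left
      rw [pow_mul, ← mul_pow, ← pow_add, Nat.sub_add_cancel (by omega), hζ.pow_eq_one, one_pow]
    rw [e2, ← pow_mul]
    ring
  -- completeness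
  have complete : ∀ χ ∈ B, χ = triv G ∨ χ = x1 ∨ χ = x2 ∨ χ = x3 ∨
        ∃ j, 0 < j ∧ j < h ∧ χ = y j := by
    intro χ hχB
    by_contra hcon
    push Not at hcon
    obtain ⟨c0, c1, c2, c3, c4⟩ := hcon
    have hχS : χ ∈ S := (hSmem χ).2 ⟨c0, hχB⟩
    have hαz : ∀ j, j < N → α j χ = 0 := by
      intro j hjN
      rcases Nat.eq_zero_or_pos j with rfl | hj
      · exact hα0 χ
      by_cases hjh : j = h
      · rw [hjh, hβh χ hχS, if_neg c1, if_neg c2, if_neg c3]; ring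
      · obtain ⟨-, -, -, -, e⟩ := hy j hj hjN hjh
        rw [e χ hχS, if_neg c1, if_neg, add_zero]
        rcases Nat.lt_or_ge j h with h1 | h1
        · exact c4 j hj h1
        · have h2 := (hyy j (N - j) hj hjN hjh (by omega) (by omega) (by omega)).2
            (Or.inr (by omega))
          rw [h2]
          exact c4 (N - j) (by omega) (by omega)
    have hχJ : (χ : G → ℂ) (σ ^ h) = 0 := by
      rw [cval χ h hh (by omega)]
      rw [Finset.sum_eq_zero, neg_zero]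
      intro j hj
      rw [hαz j (Finset.mem_range.1 hj)]; simp
    apply no_vanish hM ((hBmem χ).1 hχB) ?_ hJ
    intro t ht
    by_cases htJ : IsConj (σ ^ h) t
    · obtain ⟨g, hg⟩ := isConj_iff.1 htJ
      rw [← hg, Cfsg.Agent.Lib.Helper81.irr_classFunction χ (σ ^ h) g, hχJ]
    · choose nt hnt using fun ψ : IrrCharacter G => irr_invol_int ψ ht
      have hbound := D.centralizer_bound hN hh ht htJ
      have ht1 : t ≠ 1 := by
        intro h1; rw [h1, orderOf_one] at ht; omega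
      have hnorm := gram_self' hM ⟨1, by rw [ht, pow_one]⟩ ht1
        (core_index_invol P _ (by rw [← hNdef]; omega) hP ht)
      rw [finsum_B0_eq, ← hB] at hnorm
      simp only [hnt, map_intCast] at hnorm
      have hnorm' : ∑ ψ ∈ B, nt ψ * nt ψ
          = ((2 ^ (Nat.card (Subgroup.centralizer ({t} : Set G))).factorization 2 : ℕ) : ℤ) := by
        exact_mod_cast hnorm
      have hle : ((2 ^ (Nat.card (Subgroup.centralizer ({t} : Set G))).factorization 2 : ℕ) : ℤ)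
          ≤ 4 := by
        have : 2 ^ (Nat.card (Subgroup.centralizer ({t} : Set G))).factorization 2 ≤ 2 ^ 2 :=
          Nat.pow_le_pow_right (by norm_num) hbound
        exact_mod_cast this
      have o0 : 1 ≤ nt (triv G) ^ 2 := odd_val (triv G) hJ ht (e := 1) (Or.inl rfl)
        (by simp [Cfsg.Agent.Lib.Helper80.trivIrr]) (hnt _)
      have o1 : 1 ≤ nt x1 ^ 2 := odd_val x1 hJ ht hd1 (v1 h hh (by omega)) (hnt _)
      have pm : ∀ d : ℤ, (d = 1 ∨ d = -1) → (d * (-1) ^ (h + 1) = 1 ∨ d * (-1) ^ (h + 1) = -1) := by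
        intro d hd
        rcases neg_one_pow_eq_or ℤ (h + 1) with h1 | h1 <;> rcases hd with h2 | h2 <;>
          rw [h1, h2] <;> norm_num
      have o2 : 1 ≤ nt x2 ^ 2 := odd_val x2 hJ ht (pm d2 hd2)
        (by rw [single x2 d2 αx2 h hh (by omega)]; push_cast; ring) (hnt _)
      have o3 : 1 ≤ nt x3 ^ 2 := odd_val x3 hJ ht (pm d3 hd3)
        (by rw [single x3 d3 αx3 h hh (by omega)]; push_cast; ring) (hnt _)
      have hsub : ({χ, triv G, x1, x2, x3} : Finset (IrrCharacter G)) ⊆ B := by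
        intro ψ hψ
        simp only [Finset.mem_insert, Finset.mem_singleton] at hψ
        rcases hψ with rfl | rfl | rfl | rfl | rfl
        · exact hχB
        · exact htB
        · exact ((hSmem _).1 hx1S).2
        · exact ((hSmem _).1 hx2S).2
        · exact ((hSmem _).1 hx3S).2
      have hsum := Finset.sum_le_sum_of_subset_of_nonneg (f := fun ψ => nt ψ * nt ψ) hsub
        (fun i _ _ => mul_self_nonneg _)
      have t1 := ((hSmem _).1 hx1S).1
      have t2 := ((hSmem _).1 hx2S).1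
      have t3 := ((hSmem _).1 hx3S).1
      rw [Finset.sum_insert (by simp [c0, c1, c2, c3]),
        Finset.sum_insert (by simp [Ne.symm t1, Ne.symm t2, Ne.symm t3]),
        Finset.sum_insert (by simp [h12, h13]), Finset.sum_insert (by simp [h23]),
        Finset.sum_singleton, hnorm'] at hsum
      have hz : nt χ * nt χ ≤ 0 := by nlinarith
      have hz' : nt χ = 0 := by
        have := mul_self_nonneg (nt χ)
        exact mul_self_eq_zero.1 (le_antisymm hz this)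
      rw [hnt, hz']; simp
  refine ⟨x1, x2, x3, y, d1, d2, d3, hd1, hd2, hd3, ((hSmem _).1 hx1S).1, ((hSmem _).1 hx2S).1,
    ((hSmem _).1 hx3S).1, h12, h13, h23, ?_, ?_, ?_, ?_, ?_⟩
  · intro j hj hjh
    obtain ⟨yS, y1, y2, y3, -⟩ := hy j hj (by omega) (by omega)
    exact ⟨((hSmem _).1 yS).1, y1, y2, y3⟩
  · intro i j hi hih hj hjh he
    rcases (hyy i j hi (by omega) (by omega) hj (by omega) (by omega)).1 he with h1 | h1 <;> omega
  · intro χ
    constructor
    · intro hχ; exact complete χ ((hBmem χ).2 hχ)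
    · rw [← hBmem]
      rintro (rfl | rfl | rfl | rfl | ⟨j, hj, hjh, rfl⟩)
      · exact htB
      · exact ((hSmem _).1 hx1S).2
      · exact ((hSmem _).1 hx2S).2
      · exact ((hSmem _).1 hx3S).2
      · exact ((hSmem _).1 (hy j hj (by omega) (by omega)).1).2
  · intro l hl hlN
    exact ⟨v1 l hl hlN, single x2 d2 αx2 l hl hlN, single x3 d3 αx3 l hl hlN,
      fun j hj hjh => vy j hj hjh l hl hlN⟩
  · intro ρ hρ
    have split : ∀ j, 0 < j → j < N →
        1 + ∑ χ ∈ S, (α j χ : ℂ) * (χ : G → ℂ) ρ = 0 := by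
      intro j hj hjN
      have h1 := lin ρ hρ j
      rw [← Finset.add_sum_erase B _ htB, htriv j hj hjN, ← hS] at h1
      simpa [Cfsg.Agent.Lib.Helper80.trivIrr] using h1
    constructor
    · have h1 := split h hh (by omega)
      have e : ∀ χ ∈ S, (α h χ : ℂ) * (χ : G → ℂ) ρ
          = (if χ = x1 then (d1 : ℂ) else 0) * (χ : G → ℂ) ρ
            + (if χ = x2 then (d2 : ℂ) else 0) * (χ : G → ℂ) ρ
            + (if χ = x3 then (d3 : ℂ) else 0) * (χ : G → ℂ) ρ := by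
        intro χ hχ
        rw [hβh χ hχ]; push_cast; ring
      rw [Finset.sum_congr rfl e, Finset.sum_add_distrib, Finset.sum_add_distrib,
        sum_ite_mulC S hx1S, sum_ite_mulC S hx2S, sum_ite_mulC S hx3S] at h1
      linear_combination h1
    · intro j hj hjh
      have h1 := split j hj (by omega)
      obtain ⟨yS, -, -, -, e0⟩ := hy j hj (by omega) (by omega)
      have e : ∀ χ ∈ S, (α j χ : ℂ) * (χ : G → ℂ) ρ
          = (if χ = x1 then (d1 : ℂ) else 0) * (χ : G → ℂ) ρ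
            + (if χ = y j then (-d1 : ℂ) else 0) * (χ : G → ℂ) ρ := by
        intro χ hχ
        rw [e0 χ hχ]; push_cast; ring
      rw [Finset.sum_congr rfl e, Finset.sum_add_distrib,
        sum_ite_mulC S hx1S, sum_ite_mulC S yS] at h1
      linear_combination h1

end Cfsg.Agent.Lib.Helper25
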