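import Cfsg.Agent.Lib.Helper25.DihMain
import Cfsg.Agent.Lib.Helper25.DihDouble
import Cfsg.Agent.S0942

set_option autoImplicit false

/-! Values of principal block characters on the centralizer of the central involution. -/

open Cfsg
open scoped ComplexConjugate

namespace Cfsg.Agent.Lib.Helper25

variable {G : Type*} [Group G] [Finite G] {M : Ideal AlgInt}

theorem Dih.toSub {P C : Subgroup G} {σ τ : G} {N : ℕ} (D : Dih P σ τ N) (hPC : P ≤ C) :
    Dih (P.subgroupOf C) (⟨σ, hPC D.σ_mem⟩ : C) ⟨τ, hPC D.τ_mem⟩ N := by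
  refine ⟨Subgroup.mem_subgroupOf.2 D.σ_mem, Subgroup.mem_subgroupOf.2 D.τ_mem, ?_, ?_, ?_, ?_, ?_⟩
  · rw [Subgroup.orderOf_mk]; exact D.ordσ
  · rw [Subgroup.orderOf_mk]; exact D.ordτ
  · apply Subtype.ext
    simp only [Subgroup.coe_mul, Subgroup.coe_inv]
    exact D.rel
  · intro x hx
    obtain ⟨a, h | h⟩ := D.cases (x : G) (Subgroup.mem_subgroupOf.1 hx)
    · exact ⟨a, Or.inl (Subtype.ext (by simpa using h))⟩
    · exact ⟨a, Or.inr (Subtype.ext (by simpa using h))⟩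
  · rw [Nat.card_congr (Subgroup.subgroupOfEquivOfLe hPC).toEquiv]; exact D.card

theorem complement_of_odd {H : Type*} [Group H] [Finite H] (K P : Subgroup H)
    (hodd : Odd (Nat.card K)) {k : ℕ} (hk : K.index = 2 ^ k) (hP : IsPGroup 2 P)
    (hPi : ¬ 2 ∣ P.index) : K.IsComplement' P := by
  obtain ⟨a, ha⟩ := hP.exists_card_eq
  have h1 := K.card_mul_index
  have h2 := P.card_mul_index
  rw [hk] at h1
  rw [ha] at h2
  have cK : Nat.Coprime (2 ^ a) (Nat.card K) :=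
    Nat.Coprime.pow_left a (Nat.coprime_two_left.2 hodd)
  have cP : Nat.Coprime (2 ^ k) P.index :=
    Nat.Coprime.pow_left k ((Nat.Prime.coprime_iff_not_dvd Nat.prime_two).2 hPi)
  have d1 : 2 ^ a ∣ 2 ^ k := by
    apply cK.dvd_of_dvd_mul_left
    rw [h1, ← h2]; exact Dvd.intro _ rfl
  have d2 : 2 ^ k ∣ 2 ^ a := by
    apply cP.dvd_of_dvd_mul_right
    rw [h2, ← h1]; exact Dvd.intro_left _ rfl
  have e : 2 ^ a = 2 ^ k := Nat.dvd_antisymm d1 d2
  apply Subgroup.isComplement'_of_coprime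
  · rw [ha, e, h1]
  · rw [ha]; exact cK.symm

variable {P : Sylow 2 G} {σ τ : G}

theorem Dih.core_index_pow {n : ℕ} (hn : 3 ≤ n)
    (hP : Nonempty ((P : Subgroup G) ≃* DihedralGroup (2 ^ (n - 1))))
    (D : Dih (P : Subgroup G) σ τ (2 ^ (n - 1))) {l : ℕ} (hl0 : 0 < l) (hl : l < 2 ^ (n - 1)) :
    ∃ k : ℕ, (pPrimeCore 2 (Subgroup.centralizer ({σ ^ l} : Set G))).index = 2 ^ k := by
  have hN : 2 ^ (n - 1) = 2 * 2 ^ (n - 2) := by
    rw [← pow_succ']; congr 1; omega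
  have hh : 0 < 2 ^ (n - 2) := by positivity
  by_cases hlh : l = 2 ^ (n - 2)
  · rw [hlh]
    exact core_index_invol P _ (by omega) hP (D.ordJ hN hh)
  · have hG : (Nat.card G).factorization 2 = n := by
      have h1 := P.card_eq_multiplicity
      have h2 : Nat.card (P : Subgroup G) = 2 ^ n := by
        rw [D.card, ← pow_succ']; congr 1; omega
      rw [h2] at h1
      exact (Nat.pow_right_injective (le_refl 2) h1).symm
    have hAcomm : ∀ x ∈ Subgroup.zpowers σ, Commute x (σ ^ l) := by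
      rintro _ ⟨i, rfl⟩
      exact ((Commute.refl σ).zpow_left i).pow_right l
    have hAcard : Nat.card (Subgroup.zpowers σ) = 2 ^ (n - 2 + 1) := by
      rw [Nat.card_zpowers, D.ordσ]; congr 1; omega
    obtain ⟨j, hj⟩ := Dih.order_pow hn D hl0 hl hlh
    obtain ⟨nc1, -⟩ := nc_lemma hj (Subgroup.zpowers σ) hAcomm hAcard
      (by rw [hG]; omega) (D.rel_pow l)
    exact core_index_of_cyclic (Subgroup.zpowers σ) hAcomm inferInstance (by rw [nc1, hAcard])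

theorem Dih.exists_pow_lt {P : Subgroup G} {N : ℕ} (D : Dih P σ τ N) {y : G}
    (hy : y ∈ Subgroup.zpowers σ) (hy1 : y ≠ 1) : ∃ l, 0 < l ∧ l < N ∧ y = σ ^ l := by
  obtain ⟨a, ha⟩ := (mem_powers_iff_mem_zpowers).2 hy
  have ha' : σ ^ a = y := ha
  have hpos : 0 < N := D.ordσ ▸ orderOf_pos σ
  refine ⟨a % N, ?_, Nat.mod_lt _ hpos, ?_⟩
  · rcases Nat.eq_zero_or_pos (a % N) with h | h
    · exfalso
      apply hy1
      rw [← ha', ← pow_mod_orderOf, D.ordσ, h, pow_zero]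
    · exact h
  · rw [← ha', ← D.ordσ, pow_mod_orderOf]

theorem Dih.val_section (hM : IsPModular 2 M) {n : ℕ} (hn : 3 ≤ n)
    (hP : Nonempty ((P : Subgroup G) ≃* DihedralGroup (2 ^ (n - 1))))
    (D : Dih (P : Subgroup G) σ τ (2 ^ (n - 1))) {χ : IrrCharacter G}
    (hχ : χ ∈ principalBlock M G) {y : G} (hy : y ∈ Subgroup.zpowers σ) (hy1 : y ≠ 1) {v : G}
    (hv : Commute y v) (hodd : Odd (orderOf v)) : (χ : G → ℂ) (y * v) = (χ : G → ℂ) y := by
  have : Fact (Nat.Prime 2) := ⟨Nat.prime_two⟩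
  obtain ⟨l, hl0, hl, rfl⟩ := D.exists_pow_lt hy hy1
  obtain ⟨k, hk⟩ := D.core_index_pow hn hP hl0 hl
  obtain ⟨i, -, hi⟩ := (Nat.dvd_prime_pow Nat.prime_two).1
    (D.ordσ ▸ orderOf_pow_dvd (x := σ) l)
  apply Cfsg.Agent.S0942.result 2 M hM (σ ^ l) ⟨i, hi⟩ v ?_ χ hχ
  have hvC : v ∈ Subgroup.centralizer ({σ ^ l} : Set G) := by
    rw [Subgroup.mem_centralizer_singleton_iff]; exact hv.symm
  have := (Cfsg.Agent.Lib.Helper40.pPrimeCore_mem 2
    (Subgroup.centralizer ({σ ^ l} : Set G))).1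
  exact ⟨⟨v, hvC⟩, Cfsg.Agent.Lib.Helper11.mem_of_odd_orderOf _ hk ⟨v, hvC⟩
    (by rw [Subgroup.orderOf_mk]; exact hodd), rfl⟩

theorem Dih.J_mem_zpowers {P : Subgroup G} {n : ℕ} (hn : 3 ≤ n) (D : Dih P σ τ (2 ^ (n - 1)))
    {y : G} (hy : y ∈ Subgroup.zpowers σ) (hy1 : y ≠ 1) :
    σ ^ (2 ^ (n - 2)) ∈ Subgroup.zpowers y := by
  have hN : 2 ^ (n - 1) = 2 * 2 ^ (n - 2) := by
    rw [← pow_succ']; congr 1; omega
  have hh : 0 < 2 ^ (n - 2) := by positivity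
  have hdvd : orderOf y ∣ 2 ^ (n - 1) := by
    have h0 := Subgroup.orderOf_dvd_natCard _ hy
    rwa [Nat.card_zpowers, D.ordσ] at h0
  obtain ⟨i, -, hi⟩ := (Nat.dvd_prime_pow Nat.prime_two).1 hdvd
  rcases i with _ | i
  · exfalso; rw [pow_zero, orderOf_eq_one_iff] at hi; exact hy1 hi
  · have h1 : orderOf (y ^ (2 ^ i)) = 2 := by
      rw [orderOf_pow_of_dvd (by positivity) (by rw [hi]; exact pow_dvd_pow 2 (by omega)), hi,
        pow_succ]
      exact Nat.mul_div_cancel_left 2 (by positivity)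
    have h2 := Cfsg.Agent.Lib.Helper11.eq_of_orderOf_two_of_mem_cyclic (Subgroup.zpowers σ)
      (Subgroup.pow_mem _ hy (2 ^ i))
      (Subgroup.pow_mem _ (Subgroup.mem_zpowers σ) (2 ^ (n - 2))) h1 (D.ordJ hN hh)
    rw [← h2]
    exact Subgroup.pow_mem _ (Subgroup.mem_zpowers y) _

end Cfsg.Agent.Lib.Helper25
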