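import Cfsg.Agent.Lib.Helper25.DihOrder

set_option autoImplicit false

/-! Values of principal block characters on the centralizer of the central involution, II. -/

open Cfsg
open scoped ComplexConjugate

namespace Cfsg.Agent.Lib.Helper25

variable {G : Type*} [Group G] [Finite G] {M : Ideal AlgInt} {P : Sylow 2 G} {σ τ : G}

theorem Dih.factC (hM : IsPModular 2 M) {n : ℕ} (hn : 3 ≤ n)
    (hP : Nonempty ((P : Subgroup G) ≃* DihedralGroup (2 ^ (n - 1))))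
    (D : Dih (P : Subgroup G) σ τ (2 ^ (n - 1))) {C : Subgroup G}
    (hCmem : ∀ x, x ∈ C ↔ x * σ ^ (2 ^ (n - 2)) = σ ^ (2 ^ (n - 2)) * x)
    (hPC : (P : Subgroup G) ≤ C) {K : Subgroup C} [K.Normal] {k : ℕ}
    (hk : K.index = 2 ^ k) {σH τH : C} (hσH : (σH : G) = σ) (hτH : (τH : G) = τ)
    (DH : Dih ((P : Subgroup G).subgroupOf C) σH τH (2 ^ (n - 1)))
    (hc : K.IsComplement' ((P : Subgroup G).subgroupOf C)) (w : C) (l : ℕ)
    (hw : QuotientGroup.mk' K w = (QuotientGroup.mk' K σH) ^ l)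
    (hne : (QuotientGroup.mk' K σH) ^ l ≠ 1) :
    σ ^ (2 ^ (n - 2)) ∈ Subgroup.zpowers (w : G) ∧
      ∀ χ : IrrCharacter G, χ ∈ principalBlock M G → (χ : G → ℂ) (w : G) = (χ : G → ℂ) (σ ^ l) := by
  have := Fintype.ofFinite G
  have DQ := DH.quot hc
  have hN3 : 3 ≤ 2 ^ (n - 1) := by
    calc 3 ≤ 2 ^ 2 := by norm_num
      _ ≤ 2 ^ (n - 1) := Nat.pow_le_pow_right (by norm_num) (by omega)
  obtain ⟨u, hu⟩ := Cfsg.Agent.Lib.Helper81.exists_isPPart Nat.prime_two (w : G)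
  obtain ⟨m, hm, -⟩ := Cfsg.Agent.Lib.Helper81.exists_zpow_eq_pPart Nat.prime_two hu hu (i := 1)
    (by norm_num)
  rw [zpow_one] at hm
  obtain ⟨v, huv, hcomm, ⟨e, he⟩, hvodd⟩ := hu
  have hvodd' : Odd (orderOf v) := by
    rw [← Nat.not_even_iff_odd]; exact fun h => hvodd (even_iff_two_dvd.1 h)
  obtain ⟨uH, huH⟩ : ∃ uH : C, uH = w ^ m := ⟨_, rfl⟩
  have huH' : (uH : G) = u := by rw [huH, Subgroup.coe_zpow, hm]
  obtain ⟨vH, hvH⟩ : ∃ vH : C, vH = uH⁻¹ * w := ⟨_, rfl⟩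
  have hvH' : (vH : G) = v := by
    rw [hvH, Subgroup.coe_mul, Subgroup.coe_inv, huH', ← huv]; group
  have hvK : vH ∈ K := Cfsg.Agent.Lib.Helper11.mem_of_odd_orderOf K hk vH
    (by rw [← Subgroup.orderOf_coe, hvH']; exact hvodd')
  have hvK1 : QuotientGroup.mk' K vH = 1 := (QuotientGroup.eq_one_iff vH).2 hvK
  have hπu : QuotientGroup.mk' K uH = (QuotientGroup.mk' K σH) ^ l := by
    have h1 : w = uH * vH := by rw [hvH]; group
    rw [← hw, h1, map_mul, hvK1, mul_one]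
  obtain ⟨c, hcC, hcP⟩ := Cfsg.Agent.Lib.Helper11.exists_conj_le_sylow_of_le C P hPC
    (Subgroup.zpowers u) (isPGroup_zpowers_of_orderOf he)
    ((Subgroup.zpowers_le).2 (huH' ▸ uH.2))
  have hp : c * u * c⁻¹ ∈ (P : Subgroup G) :=
    hcP (Cfsg.Agent.Lib.Helper11.conj_mem_conj_smul (Subgroup.mem_zpowers u))
  obtain ⟨pH, hpH⟩ : ∃ pH : C, pH = (⟨c, hcC⟩ : C) * uH * (⟨c, hcC⟩ : C)⁻¹ := ⟨_, rfl⟩
  have hpH' : (pH : G) = c * u * c⁻¹ := by
    rw [hpH]; simp [huH']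
  have hπp : QuotientGroup.mk' K pH = (QuotientGroup.mk' K σH) ^ l ∨
      QuotientGroup.mk' K pH = ((QuotientGroup.mk' K σH) ^ l)⁻¹ := by
    rw [hpH, map_mul, map_mul, map_inv, hπu]
    by_cases hq : QuotientGroup.mk' K (⟨c, hcC⟩ : C) ∈ Subgroup.zpowers (QuotientGroup.mk' K σH)
    · left
      obtain ⟨i, hi⟩ := hq
      rw [← hi]
      have h1 : Commute ((QuotientGroup.mk' K σH) ^ i) ((QuotientGroup.mk' K σH) ^ l) :=
        ((Commute.refl _).zpow_left i).pow_right l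
      show (QuotientGroup.mk' K σH) ^ i * (QuotientGroup.mk' K σH) ^ l
        * ((QuotientGroup.mk' K σH) ^ i)⁻¹ = _
      rw [h1.eq, mul_inv_cancel_right]
    · right
      exact DQ.inv_of_not_mem (Subgroup.mem_top _) hq
        (Subgroup.pow_mem _ (Subgroup.mem_zpowers _) l)
  obtain ⟨b, hb | hb⟩ := D.cases _ hp
  swap
  · exfalso
    have h1 : pH = σH ^ b * τH := by
      apply Subtype.ext
      rw [hpH', hb]; simp [hσH, hτH]
    apply DQ.τ_not_mem hN3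
    have h2 : QuotientGroup.mk' K τH
        = ((QuotientGroup.mk' K σH) ^ b)⁻¹ * QuotientGroup.mk' K pH := by
      rw [h1, map_mul, map_pow]; group
    rw [h2]
    apply Subgroup.mul_mem _ (Subgroup.inv_mem _ (Subgroup.pow_mem _ (Subgroup.mem_zpowers _) b))
    rcases hπp with h3 | h3 <;> rw [h3]
    · exact Subgroup.pow_mem _ (Subgroup.mem_zpowers _) l
    · exact Subgroup.inv_mem _ (Subgroup.pow_mem _ (Subgroup.mem_zpowers _) l)
  have h1 : pH = σH ^ b := by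
    apply Subtype.ext
    rw [hpH', hb]; simp [hσH]
  rw [h1, map_pow] at hπp
  have hσb : σ ^ b = σ ^ l ∨ σ ^ b = (σ ^ l)⁻¹ := by
    rcases hπp with h3 | h3
    · left
      have h4 : b ≡ l [MOD 2 ^ (n - 1)] := by
        rw [← DQ.ordσ]; exact pow_eq_pow_iff_modEq.1 h3
      rw [pow_eq_pow_iff_modEq, D.ordσ]; exact h4
    · right
      have h4 : (QuotientGroup.mk' K σH) ^ (b + l) = 1 := by
        rw [pow_add, h3, inv_mul_cancel]
      have h5 := orderOf_dvd_of_pow_eq_one h4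
      rw [DQ.ordσ, ← D.ordσ] at h5
      have h6 : σ ^ (b + l) = 1 := orderOf_dvd_iff_pow_eq_one.1 h5
      rw [pow_add] at h6
      exact eq_inv_of_mul_eq_one_left h6
  have hσb1 : σ ^ b ≠ 1 := by
    intro h3
    have h4 : (QuotientGroup.mk' K σH) ^ b = 1 := by
      rw [← map_pow]
      have : σH ^ b = 1 := Subtype.ext (by simp [hσH, h3])
      rw [this, map_one]
    rw [h4] at hπp
    rcases hπp with h5 | h5
    · exact hne h5.symm
    · exact hne (inv_eq_one.1 h5.symm)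
  have hσbmem : σ ^ b ∈ Subgroup.zpowers σ := Subgroup.pow_mem _ (Subgroup.mem_zpowers σ) b
  constructor
  · obtain ⟨i, hi⟩ := D.J_mem_zpowers hn hσbmem hσb1
    have hi' : (σ ^ b) ^ i = σ ^ (2 ^ (n - 2)) := hi
    rw [← hb, conj_zpow] at hi'
    have h3 : u ^ i = σ ^ (2 ^ (n - 2)) := by
      have h4 : u ^ i = c⁻¹ * (c * u ^ i * c⁻¹) * c := by group
      rw [h4, hi']
      have h5 := (hCmem c⁻¹).1 (C.inv_mem hcC)
      rw [h5]; group
    refine ⟨m * i, ?_⟩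
    show (w : G) ^ (m * i) = _
    rw [zpow_mul, hm, h3]
  · intro χ hχ
    have h3 : (χ : G → ℂ) (w : G) = (χ : G → ℂ) (σ ^ b * (c * v * c⁻¹)) := by
      rw [← hb, ← Cfsg.Agent.Lib.Helper81.irr_classFunction χ (w : G) c, ← huv]
      congr 1; group
    have h4 : Commute (σ ^ b) (c * v * c⁻¹) := by
      rw [← hb]
      show c * u * c⁻¹ * (c * v * c⁻¹) = c * v * c⁻¹ * (c * u * c⁻¹)
      have e1 : c * u * c⁻¹ * (c * v * c⁻¹) = c * (u * v) * c⁻¹ := by group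
      have e2 : c * v * c⁻¹ * (c * u * c⁻¹) = c * (v * u) * c⁻¹ := by group
      rw [e1, e2, hcomm.eq]
    rw [h3, D.val_section hM hn hP hχ hσbmem hσb1 h4 (by rw [orderOf_conj_eq]; exact hvodd')]
    rcases hσb with h5 | h5
    · rw [h5]
    · rw [h5, ← D.rel_pow l, Cfsg.Agent.Lib.Helper81.irr_classFunction χ (σ ^ l) τ]

end Cfsg.Agent.Lib.Helper25
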