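import Cfsg.Agent.Lib.Helper25.DihOrder2

set_option autoImplicit false

/-! Brauer's order formula for dihedral Sylow 2-subgroups and one class of involutions. -/

open Cfsg
open scoped ComplexConjugate

namespace Cfsg.Agent.Lib.Helper25

variable {G : Type*} [Group G]

local notation "triv" => Cfsg.Agent.Lib.Helper80.trivIrr

/-- both factors of a product of two involutions centralize an involution in the cyclic group
generated by the product. -/
theorem invol_pair_centralize {s s' J : G} (hs : s * s = 1) (hs' : s' * s' = 1) (hJ : J * J = 1)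
    (hmem : J ∈ Subgroup.zpowers (s * s')) : s * J = J * s ∧ s' * J = J * s' := by
  obtain ⟨i, hi⟩ := hmem
  have hi' : (s * s') ^ i = J := hi
  have hsi : s⁻¹ = s := inv_eq_of_mul_eq_one_left hs
  have hsi' : s'⁻¹ = s' := inv_eq_of_mul_eq_one_left hs'
  have hJi : J⁻¹ = J := inv_eq_of_mul_eq_one_left hJ
  have e1 : s * (s * s') * s⁻¹ = (s * s')⁻¹ := by
    rw [mul_inv_rev, hsi, hsi', ← mul_assoc, hs, one_mul]
  have e2 : s' * (s * s') * s'⁻¹ = (s * s')⁻¹ := by
    rw [mul_inv_rev, hsi, hsi', mul_assoc, mul_assoc, hs', mul_one]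
  constructor
  · have h1 : s * J * s⁻¹ = J := by
      rw [← hi', ← conj_zpow, e1, inv_zpow, hi', hJi]
    calc s * J = s * J * s⁻¹ * s := by group
      _ = J * s := by rw [h1]
  · have h1 : s' * J * s'⁻¹ = J := by
      rw [← hi', ← conj_zpow, e2, inv_zpow, hi', hJi]
    calc s' * J = s' * J * s'⁻¹ * s' := by group
      _ = J * s' := by rw [h1]

theorem not_mem_zpowers_mul [Finite G] {J s : G} (hJ : orderOf J = 2) (hs : orderOf s = 2)
    (hc : s * J = J * s) : J ∉ Subgroup.zpowers (J * s) := by
  intro hmem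
  obtain ⟨hJJ, hJ1⟩ := Cfsg.Agent.Lib.Helper11.orderOf_two_iff.1 hJ
  obtain ⟨hss, hs1⟩ := Cfsg.Agent.Lib.Helper11.orderOf_two_iff.1 hs
  have hww : J * s * (J * s) = 1 := by
    calc J * s * (J * s) = J * (s * J) * s := by group
      _ = J * (J * s) * s := by rw [hc]
      _ = (J * J) * (s * s) := by group
      _ = 1 := by rw [hJJ, hss, one_mul]
  by_cases hw1 : J * s = 1
  · rw [hw1, Subgroup.zpowers_one_eq_bot, Subgroup.mem_bot] at hmem
    exact hJ1 hmem
  · have h1 := Cfsg.Agent.Lib.Helper11.eq_of_orderOf_two_of_mem_cyclic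
      (Subgroup.zpowers (J * s)) hmem (Subgroup.mem_zpowers _) hJ
      (Cfsg.Agent.Lib.Helper11.orderOf_two_iff.2 ⟨hww, hw1⟩)
    apply hs1
    exact (mul_eq_left.1 h1.symm)

theorem card_centralizer_sub {J t : G} {C : Subgroup G} (hC : C = Subgroup.centralizer ({J} : Set G))
    (tH : C) (htH : (tH : G) = t) :
    Nat.card (Subgroup.centralizer ({tH} : Set C))
      = Nat.card (Subgroup.centralizer ({J, t} : Set G)) := by
  have h1 : Subgroup.centralizer ({J, t} : Set G)
      = (Subgroup.centralizer ({tH} : Set C)).map C.subtype := by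
    ext g
    rw [Subgroup.mem_centralizer_iff, Subgroup.mem_map]
    constructor
    · intro h
      have hgC : g ∈ C := by
        rw [hC, Subgroup.mem_centralizer_singleton_iff]
        exact (h J (by simp)).symm
      refine ⟨⟨g, hgC⟩, ?_, rfl⟩
      rw [Subgroup.mem_centralizer_singleton_iff]
      apply Subtype.ext
      simp only [Subgroup.coe_mul, htH]
      exact (h t (by simp)).symm
    · rintro ⟨x, hx, rfl⟩
      rw [Subgroup.mem_centralizer_singleton_iff] at hx
      have hx' : (x : G) * t = t * x := by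
        have := congrArg Subtype.val hx
        simpa [htH] using this
      have hxC : (x : G) * J = J * x := by
        have h0 : ∀ z ∈ C, z * J = J * z := by
          intro z hz
          rw [hC, Subgroup.mem_centralizer_singleton_iff] at hz
          exact hz
        exact h0 _ x.2
      intro y hy
      simp only [Set.mem_insert_iff, Set.mem_singleton_iff] at hy
      rcases hy with rfl | rfl
      · exact hxC.symm
      · exact hx'.symm
  rw [h1, Subgroup.card_map_of_injective C.subtype_injective]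

theorem Dih.one_class [Finite G] {P : Sylow 2 G} {σ τ : G} {N h : ℕ}
    (D : Dih (P : Subgroup G) σ τ N) (hN : N = 2 * h) (hh : 0 < h)
    (hconj : IsConj (σ ^ h) τ ∧ IsConj (σ ^ h) (σ * τ)) (t : G) (ht : orderOf t = 2) :
    IsConj (σ ^ h) t := by
  obtain ⟨k, hk⟩ := exists_conj_mem_sylow P
    (isPGroup_zpowers_of_orderOf (x := t) (k := 1) (by rw [ht, pow_one]))
  have h1 := hk t (Subgroup.mem_zpowers t)
  have h2 : orderOf (k * t * k⁻¹) = 2 := by rw [orderOf_conj_eq, ht]
  have h3 : IsConj t (k * t * k⁻¹) := isConj_iff.2 ⟨k, rfl⟩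
  apply IsConj.trans _ h3.symm
  rcases D.invol_cases hN hh h1 h2 with h4 | h4
  · rw [h4]
  · obtain ⟨a, ha⟩ := D.not_mem_form h1 h4
    rw [ha]
    rcases Nat.even_or_odd' a with ⟨b, hb | hb⟩
    · have h5 := D.conj_pow b 0
      rw [pow_zero, one_mul, zero_add, ← hb] at h5
      exact hconj.1.trans (isConj_iff.2 ⟨σ ^ b, h5⟩)
    · have h5 := D.conj_pow b 1
      rw [pow_one, add_comm 1, ← hb] at h5
      exact hconj.2.trans (isConj_iff.2 ⟨σ ^ b, h5⟩)

end Cfsg.Agent.Lib.Helper25
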