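import Cfsg.Agent.Lib.Helper25.DihOrder3

set_option autoImplicit false

/-! Brauer's order formula: the count of pairs of involutions. -/

open Cfsg
open scoped ComplexConjugate

namespace Cfsg.Agent.Lib.Helper25

variable {G : Type*} [Group G] [Fintype G] [DecidableEq G]

theorem dih_V {P : Subgroup G} {σ τ : G} {N h : ℕ} (hN : N = 2 * h)
    (hh : 2 ≤ h) (hJ : orderOf (σ ^ h) = 2)
    (hone : ∀ t : G, orderOf t = 2 → IsConj (σ ^ h) t)
    {C : Subgroup G} (hC : C = Subgroup.centralizer ({σ ^ h} : Set G))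
    {K : Subgroup C} [K.Normal] (hodd : Odd (Nat.card K))
    {σH τH : C} (hσH : (σH : G) = σ) (hτH : (τH : G) = τ)
    (DH : Dih (P.subgroupOf C) σH τH N) (hP2 : IsPGroup 2 (P.subgroupOf C))
    (hc : K.IsComplement' (P.subgroupOf C)) {ζ : ℂ} (hζ : IsPrimitiveRoot ζ N)
    (Θ : G → ℂ) (hcl : ∀ g x, Θ (g * x * g⁻¹) = Θ x) (hoddΘ : ∀ w, Odd (orderOf w) → Θ w = 0)
    (hθ : ∀ (w : C) (l : ℕ), QuotientGroup.mk' K w = (QuotientGroup.mk' K σH) ^ l →
      Θ (w : G) = 2 - ζ ^ l - (ζ ^ l)⁻¹)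
    (hJz : ∀ (w : C) (l : ℕ), QuotientGroup.mk' K w = (QuotientGroup.mk' K σH) ^ l →
      (QuotientGroup.mk' K σH) ^ l ≠ 1 → σ ^ h ∈ Subgroup.zpowers (w : G)) :
    ∃ m : ℕ, (m : ℚ) = (Nat.card C : ℚ) / Nat.card (Subgroup.centralizer ({σ ^ h, τ} : Set G))
        + (Nat.card C : ℚ) / Nat.card (Subgroup.centralizer ({σ ^ h, σ * τ} : Set G)) ∧
      ∑ s ∈ Finset.univ.filter (fun z : G => orderOf z = 2), Θ (σ ^ h * s) = 2 * (m : ℂ) ^ 2 := by
  classical
  have hCmem : ∀ x, x ∈ C ↔ x * σ ^ h = σ ^ h * x := by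
    intro x; rw [hC, Subgroup.mem_centralizer_singleton_iff]
  have hcen : ∀ x : C, x * σH ^ h = σH ^ h * x := by
    intro x
    apply Subtype.ext
    simp only [Subgroup.coe_mul, Subgroup.coe_pow, hσH]
    exact (hCmem x).1 x.2
  have DQ := DH.quot hc
  obtain ⟨hJJ, hJ1⟩ := Cfsg.Agent.Lib.Helper11.orderOf_two_iff.1 hJ
  obtain ⟨Inv, hInv⟩ : ∃ Inv, Inv = Finset.univ.filter (fun z : G => orderOf z = 2) := ⟨_, rfl⟩
  have hmem : ∀ z, z ∈ Inv ↔ orderOf z = 2 := by intro z; rw [hInv]; simp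
  obtain ⟨IG, hIG⟩ : ∃ IG, IG = Inv.filter (fun s => s ∈ C ∧ s ≠ σ ^ h) := ⟨_, rfl⟩
  have hIGmem : ∀ z, z ∈ IG ↔ orderOf z = 2 ∧ z ∈ C ∧ z ≠ σ ^ h := by
    intro z; rw [hIG, Finset.mem_filter, hmem]
  obtain ⟨IH, hIH⟩ : ∃ IH : Finset C, IH = IG.subtype (· ∈ C) := ⟨_, rfl⟩
  have hIHmem : ∀ s : C, s ∈ IH ↔ orderOf s = 2 ∧ s ≠ σH ^ h := by
    intro s
    rw [hIH, Finset.mem_subtype, hIGmem, Subgroup.orderOf_coe]
    constructor
    · rintro ⟨h1, -, h3⟩
      refine ⟨h1, fun he => h3 ?_⟩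
      rw [he]; simp [hσH]
    · rintro ⟨h1, h3⟩
      refine ⟨h1, s.2, fun he => h3 (Subtype.ext ?_)⟩
      rw [he]; simp [hσH]
  refine ⟨IH.card, ?_, ?_⟩
  · rw [DH.card_invol hc hodd hP2 hN hh hcen IH hIHmem, card_centralizer_sub hC τH hτH,
      card_centralizer_sub (t := σ * τ) hC (σH * τH) (by simp [hσH, hτH])]
  · rw [← hInv, ← DH.sum_theta hc hodd hN hh hcen IH hIHmem hζ (fun w => Θ (w : G)) hθ]
    rw [hInv, double_count hJ hone Θ hcl hoddΘ, ← hInv]
    have sqs : ∀ s ∈ Inv, s * s = 1 := fun s hs =>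
      (Cfsg.Agent.Lib.Helper11.orderOf_two_iff.1 ((hmem s).1 hs)).1
    -- pairs in `IG`
    have good : ∀ s ∈ IG, ∀ s' ∈ IG, σ ^ h ∉ Subgroup.zpowers (s * s') → Θ (s * s') = 0 := by
      intro s hs s' hs' hnot
      obtain ⟨o1, c1, n1⟩ := (hIGmem s).1 hs
      obtain ⟨o2, c2, n2⟩ := (hIGmem s').1 hs'
      have m1 : (⟨s, c1⟩ : C) ∈ IH := by rw [hIH, Finset.mem_subtype]; exact hs
      have m2 : (⟨s', c2⟩ : C) ∈ IH := by rw [hIH, Finset.mem_subtype]; exact hs'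
      have q1 := DH.invol_not_mem hc hodd hN (by omega) hcen ((hIHmem _).1 m1).1 ((hIHmem _).1 m1).2
      have q2 := DH.invol_not_mem hc hodd hN (by omega) hcen ((hIHmem _).1 m2).1 ((hIHmem _).1 m2).2
      have q3 := DQ.mul_mem_of_not_mem (Subgroup.mem_top _) q1 (Subgroup.mem_top _) q2
      obtain ⟨l, hl⟩ := (mem_powers_iff_mem_zpowers).2 q3
      have hl' : QuotientGroup.mk' K ((⟨s, c1⟩ : C) * ⟨s', c2⟩) = (QuotientGroup.mk' K σH) ^ l := by
        rw [map_mul]; exact hl.symm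
      by_cases hone' : (QuotientGroup.mk' K σH) ^ l = 1
      · have h0 := hθ ((⟨s, c1⟩ : C) * ⟨s', c2⟩) 0 (by rw [hl', hone', pow_zero])
        simp only [Subgroup.coe_mul, pow_zero, inv_one] at h0
        rw [h0]; norm_num
      · exact absurd (hJz _ l hl' hone') hnot
    have step1 : ∀ s ∈ Inv, s ∉ IG → ∑ s' ∈ Inv,
        (if σ ^ h ∈ Subgroup.zpowers (s * s') then Θ (s * s') else 0) = 0 := by
      intro s hs hns
      apply Finset.sum_eq_zero
      intro s' hs'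
      rw [if_neg]
      intro hz
      obtain ⟨a1, a2⟩ := invol_pair_centralize (sqs s hs) (sqs s' hs') hJJ hz
      have hsJ : s = σ ^ h := by
        by_contra hne
        exact hns ((hIGmem s).2 ⟨(hmem s).1 hs, (hCmem s).2 a1, hne⟩)
      rw [hsJ] at hz
      exact not_mem_zpowers_mul hJ ((hmem s').1 hs') a2 hz
    have step2 : ∀ s ∈ IG, ∑ s' ∈ Inv,
        (if σ ^ h ∈ Subgroup.zpowers (s * s') then Θ (s * s') else 0)
        = ∑ s' ∈ IG, Θ (s * s') := by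
      intro s hs
      have hsInv : s ∈ Inv := (hmem s).2 ((hIGmem s).1 hs).1
      rw [← Finset.sum_subset (s₁ := IG) (by rw [hIG]; exact Finset.filter_subset _ _)]
      · apply Finset.sum_congr rfl
        intro s' hs'
        split_ifs with hz
        · rfl
        · exact (good s hs s' hs' hz).symm
      · intro s' hs' hns'
        rw [if_neg]
        intro hz
        obtain ⟨a1, a2⟩ := invol_pair_centralize (sqs s hsInv) (sqs s' hs') hJJ hz
        have hsJ : s' = σ ^ h := by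
          by_contra hne
          exact hns' ((hIGmem s').2 ⟨(hmem s').1 hs', (hCmem s').2 a2, hne⟩)
        rw [hsJ, a1] at hz
        exact not_mem_zpowers_mul hJ ((hmem s).1 hsInv) a1 hz
    rw [← Finset.sum_subset (s₁ := IG) (by rw [hIG]; exact Finset.filter_subset _ _) step1,
      Finset.sum_congr rfl step2]
    have inC : ∀ x ∈ IG, x ∈ C := fun x hx => ((hIGmem x).1 hx).2.1
    rw [hIH]
    simp only [Subgroup.coe_mul]
    rw [Finset.sum_subtype_of_mem (p := fun x => x ∈ C)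
      (fun s => ∑ s' ∈ IG.subtype (fun x => x ∈ C), Θ (s * (s' : G))) inC]
    apply Finset.sum_congr rfl
    intro s _
    rw [Finset.sum_subtype_of_mem (p := fun x => x ∈ C) (fun s' => Θ (s * s')) inC]

end Cfsg.Agent.Lib.Helper25
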