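import Cfsg.Agent.Lib.Helper25.DihOrder4

set_option autoImplicit false

/-! Brauer's order formula for dihedral Sylow 2-subgroups and one class of involutions. -/

open Cfsg
open scoped ComplexConjugate

namespace Cfsg.Agent.Lib.Helper25

variable {G : Type*} [Group G] [Finite G] {M : Ideal AlgInt}

local notation "triv" => Cfsg.Agent.Lib.Helper80.trivIrr

theorem dih_order (hM : IsPModular 2 M) {n : ℕ} (hn : 3 ≤ n) {P : Sylow 2 G}
    (hP : Nonempty ((P : Subgroup G) ≃* DihedralGroup (2 ^ (n - 1)))) {σ τ : G}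
    (D : Dih (P : Subgroup G) σ τ (2 ^ (n - 1)))
    (hconj : IsConj (σ ^ (2 ^ (n - 2))) τ ∧ IsConj (σ ^ (2 ^ (n - 2))) (σ * τ))
    (χ₁ : IrrCharacter G) (hχ₁ : χ₁ ∈ principalBlock M G) (h1 : χ₁ ≠ triv G) (δ₁ : ℤ)
    (hδ₁ : δ₁ = 1 ∨ δ₁ = -1)
    (hval : ∀ l : ℕ, 0 < l → l < 2 ^ (n - 1) → (χ₁ : G → ℂ) (σ ^ l) = δ₁) :
    (Nat.card G : ℚ) * ((charDegree (χ₁ : G → ℂ) : ℚ) - δ₁) ^ 2
      = 2 * (charDegree (χ₁ : G → ℂ) : ℚ) * ((charDegree (χ₁ : G → ℂ) : ℚ) + δ₁)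
        * (Nat.card (Subgroup.centralizer ({σ ^ (2 ^ (n - 2))} : Set G)) : ℚ) ^ 3
        * (1 / (Nat.card (Subgroup.centralizer ({σ ^ (2 ^ (n - 2)), τ} : Set G)) : ℚ)
          + 1 / (Nat.card (Subgroup.centralizer ({σ ^ (2 ^ (n - 2)), σ * τ} : Set G)) : ℚ)) ^ 2 := by
  classical
  have := Fintype.ofFinite G
  have hN : 2 ^ (n - 1) = 2 * 2 ^ (n - 2) := by
    rw [← pow_succ']; congr 1; omega
  have hh : 2 ≤ 2 ^ (n - 2) := by
    calc 2 = 2 ^ 1 := by norm_num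
      _ ≤ 2 ^ (n - 2) := Nat.pow_le_pow_right (by norm_num) (by omega)
  have hNpos : 0 < 2 ^ (n - 1) := by positivity
  have hJ := D.ordJ hN (by omega)
  have hζ := Complex.isPrimitiveRoot_exp (2 ^ (n - 1)) hNpos.ne'
  obtain ⟨ζ, hζdef⟩ : ∃ ζ, ζ = Complex.exp (2 * Real.pi * Complex.I / ((2 ^ (n - 1) : ℕ) : ℂ)) :=
    ⟨_, rfl⟩
  rw [← hζdef] at hζ
  have hζ0 : ζ ≠ 0 := hζ.ne_zero hNpos.ne'
  have hζh : ζ ^ (2 ^ (n - 2)) = -1 := by
    have e1 : (ζ ^ (2 ^ (n - 2))) ^ 2 = 1 := by rw [← pow_mul, mul_comm, ← hN, hζ.pow_eq_one]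
    have e2 : ζ ^ (2 ^ (n - 2)) ≠ 1 := fun h3 => by
      have := Nat.le_of_dvd (by positivity) ((hζ.pow_eq_one_iff_dvd _).1 h3)
      omega
    have h4 : (ζ ^ (2 ^ (n - 2)) - 1) * (ζ ^ (2 ^ (n - 2)) + 1) = 0 := by linear_combination e1
    rcases mul_eq_zero.1 h4 with h3 | h3
    · exact absurd (sub_eq_zero.1 h3) e2
    · exact eq_neg_of_add_eq_zero_left h3
  obtain ⟨x1, x2, x3, y, d1, d2, d3, hd1, hd2, hd3, t1, t2, t3, h12, h13, h23, hy, hyinj, hmem,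
    hvalB, hoddB⟩ := dih_block hM hn hP D hζ
  have hδc : (δ₁ : ℂ) * δ₁ = 1 := by
    rcases hδ₁ with h | h <;> rw [h] <;> norm_num
  -- identification of χ₁
  have hid : χ₁ = x1 := by
    have two : ∀ (x : IrrCharacter G) (d : ℤ), (d = 1 ∨ d = -1) →
        (∀ l, 0 < l → l < 2 ^ (n - 1) → (x : G → ℂ) (σ ^ l) = d * (-1) ^ (l + 1)) → χ₁ ≠ x := by
      intro x d hd hx he
      have a1 := hx 1 (by norm_num) (by omega)
      have a2 := hx 2 (by norm_num) (by omega)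
      rw [← he, hval 1 (by norm_num) (by omega)] at a1
      rw [← he, hval 2 (by norm_num) (by omega)] at a2
      have a3 : (d : ℂ) = 0 := by
        have : (d : ℂ) * (-1) ^ (1 + 1) = d * (-1) ^ (2 + 1) := by rw [← a1, ← a2]
        norm_num at this
        linear_combination this / 2
      have a4 : d = 0 := by exact_mod_cast a3
      rcases hd with h | h <;> omega
    rcases (hmem χ₁).1 hχ₁ with h | h | h | h | ⟨j, hj, hjh, h⟩
    · exact absurd h h1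
    · exact h
    · exact absurd h (two x2 d2 hd2 (fun l a b => (hvalB l a b).2.1))
    · exact absurd h (two x3 d3 hd3 (fun l a b => (hvalB l a b).2.2.1))
    · exfalso
      have a1 := (hvalB (2 ^ (n - 2)) (by omega) (by omega)).2.2.2 j hj hjh
      rw [← h, hval _ (by omega) (by omega), mul_comm j, pow_mul, hζh] at a1
      rcases neg_one_pow_eq_or ℂ j with e | e <;> rw [e] at a1 <;>
        rcases hδ₁ with e1 | e1 <;> rcases hd1 with e2 | e2 <;> rw [e1, e2] at a1 <;>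
        norm_num at a1
  subst hid
  have hdd : d1 = δ₁ := by
    have a1 := (hvalB 1 (by norm_num) (by omega)).1
    rw [hval 1 (by norm_num) (by omega)] at a1
    exact_mod_cast a1.symm
  subst hdd
  obtain ⟨X, hX⟩ : ∃ X, X = y 1 := ⟨_, rfl⟩
  have hXB : X ∈ principalBlock M G :=
    (hmem X).2 (Or.inr (Or.inr (Or.inr (Or.inr ⟨1, by norm_num, by omega, hX⟩))))
  have hXval : ∀ l, 0 < l → l < 2 ^ (n - 1) → (X : G → ℂ) (σ ^ l) = d1 * (ζ ^ l + (ζ ^ l)⁻¹) := by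
    intro l hl hlN
    have := (hvalB l hl hlN).2.2.2 1 (by norm_num) (by omega)
    rw [one_mul] at this
    rw [hX]; exact this
  obtain ⟨Θ, hΘ⟩ : ∃ Θ : G → ℂ, Θ = fun g => 1 + (d1 : ℂ) * (χ₁ : G → ℂ) g
      - (d1 : ℂ) * (X : G → ℂ) g := ⟨_, rfl⟩
  have hΘg : ∀ g, Θ g = 1 + (d1 : ℂ) * (χ₁ : G → ℂ) g - (d1 : ℂ) * (X : G → ℂ) g := by
    intro g; rw [hΘ]
  have hcl : ∀ g x, Θ (g * x * g⁻¹) = Θ x := by
    intro g x
    rw [hΘg, hΘg, Cfsg.Agent.Lib.Helper81.irr_classFunction χ₁ x g,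
      Cfsg.Agent.Lib.Helper81.irr_classFunction X x g]
  have hoddΘ : ∀ w, Odd (orderOf w) → Θ w = 0 := by
    intro w hw
    rw [hΘg, hX]
    exact (hoddB w hw).2 1 (by norm_num) (by omega)
  have hone := D.one_class hN (by omega) hconj
  -- the centralizer
  obtain ⟨C, hC⟩ : ∃ C, C = Subgroup.centralizer ({σ ^ (2 ^ (n - 2))} : Set G) := ⟨_, rfl⟩
  have hCmem : ∀ x, x ∈ C ↔ x * σ ^ (2 ^ (n - 2)) = σ ^ (2 ^ (n - 2)) * x := by
    intro x; rw [hC, Subgroup.mem_centralizer_singleton_iff]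
  have hPC : (P : Subgroup G) ≤ C := fun x hx => (hCmem x).2 (D.J_central hN (by omega) hx)
  obtain ⟨K, hKn, hKodd, k, hk⟩ : ∃ K : Subgroup C, K.Normal ∧ Odd (Nat.card K) ∧
      ∃ k : ℕ, K.index = 2 ^ k := by
    rw [hC]
    exact Cfsg.Agent.S0514.result P _ (by omega) hP _ hJ
  have DH := D.toSub hPC
  have hP2 : IsPGroup 2 ((P : Subgroup G).subgroupOf C) := P.2.comap_subtype
  have hPi : ¬ 2 ∣ ((P : Subgroup G).subgroupOf C).index := by
    intro h2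
    apply P.not_dvd_index
    rw [← Subgroup.relIndex_mul_index hPC]
    exact Dvd.dvd.mul_right h2 _
  have hc := complement_of_odd K _ hKodd hk hP2 hPi
  have DQ := DH.quot hc
  have hfact := fun w l hw hne => D.factC hM hn hP hCmem hPC hk rfl rfl DH hc w l hw hne
  have hθ : ∀ (w : C) (l : ℕ), QuotientGroup.mk' K w
      = (QuotientGroup.mk' K (⟨σ, hPC D.σ_mem⟩ : C)) ^ l → Θ (w : G) = 2 - ζ ^ l - (ζ ^ l)⁻¹ := by
    intro w l hw
    by_cases hne : (QuotientGroup.mk' K (⟨σ, hPC D.σ_mem⟩ : C)) ^ l = 1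
    · have a1 := orderOf_dvd_of_pow_eq_one hne
      rw [DQ.ordσ] at a1
      rw [(hζ.pow_eq_one_iff_dvd l).2 a1]
      have a2 : w ∈ K := by
        rw [← QuotientGroup.eq_one_iff]
        show QuotientGroup.mk' K w = 1
        rw [hw, hne]
      rw [hoddΘ]
      · norm_num
      · rw [Subgroup.orderOf_coe]
        exact Odd.of_dvd_nat hKodd (Subgroup.orderOf_dvd_natCard K a2)
    · obtain ⟨-, a1⟩ := hfact w l hw hne
      have hl0 : 0 < l % 2 ^ (n - 1) := by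
        rcases Nat.eq_zero_or_pos (l % 2 ^ (n - 1)) with h0 | h0
        · exfalso
          apply hne
          rw [← pow_mod_orderOf, DQ.ordσ, h0, pow_zero]
        · exact h0
      have hlN : l % 2 ^ (n - 1) < 2 ^ (n - 1) := Nat.mod_lt _ hNpos
      have e1 : σ ^ l = σ ^ (l % 2 ^ (n - 1)) := by
        rw [← D.ordσ, pow_mod_orderOf]
      have e2 : ζ ^ l = ζ ^ (l % 2 ^ (n - 1)) := by
        conv_rhs => rw [hζ.eq_orderOf]
        rw [pow_mod_orderOf]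
      rw [hΘg, a1 χ₁ hχ₁, a1 X hXB, e1, hval _ hl0 hlN, hXval _ hl0 hlN, e2]
      linear_combination (1 - ζ ^ (l % 2 ^ (n - 1)) - (ζ ^ (l % 2 ^ (n - 1)))⁻¹) * hδc
  obtain ⟨m, hm, hV⟩ := dih_V hN hh hJ hone hC hKodd rfl rfl DH hP2 hc hζ Θ hcl hoddΘ hθ
    (fun w l hw hne => (hfact w l hw hne).1)
  -- the character side
  have himage : Finset.univ.image (fun g : G => g * σ ^ (2 ^ (n - 2)) * g⁻¹)
      = Finset.univ.filter (fun z : G => orderOf z = 2) := by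
    ext s
    simp only [Finset.mem_image, Finset.mem_univ, true_and, Finset.mem_filter]
    constructor
    · rintro ⟨g, rfl⟩; rw [orderOf_conj_eq, hJ]
    · intro hs
      exact isConj_iff.1 (hone s hs)
  have T1 := sum_conj_eq (σ ^ (2 ^ (n - 2))) (fun s => Θ (σ ^ (2 ^ (n - 2)) * s))
  rw [himage, hV] at T1
  simp only [hΘg, Finset.sum_add_distrib, Finset.sum_sub_distrib, ← Finset.mul_sum,
    Cfsg.Agent.Lib.Helper81.sum_char_conj_mul χ₁.2, Cfsg.Agent.Lib.Helper81.sum_char_conj_mul X.2,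
    Finset.sum_const, Finset.card_univ, nsmul_eq_mul, mul_one] at T1
  rw [hval _ (by omega) (by omega), hXval _ (by omega) (by omega), hζh,
    Cfsg.Agent.Lib.Helper82.isChar_one_eq
      (Cfsg.Agent.Lib.Helper20.isCharacter_of_isIrrCharacter χ₁.2), ← hC,
    ← Nat.card_eq_fintype_card] at T1
  have hX1 : (X : G → ℂ) 1 = (charDegree (χ₁ : G → ℂ) : ℂ) + d1 := by
    have a1 := hoddΘ 1 (by rw [orderOf_one]; exact odd_one)
    rw [hΘg, Cfsg.Agent.Lib.Helper82.isChar_one_eq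
      (Cfsg.Agent.Lib.Helper20.isCharacter_of_isIrrCharacter χ₁.2)] at a1
    linear_combination (-(d1 : ℂ)) * a1 - ((X : G → ℂ) 1 - (charDegree (χ₁ : G → ℂ) : ℂ)) * hδc
  have hX0 : (charDegree (χ₁ : G → ℂ) : ℂ) + d1 ≠ 0 := by
    rw [← hX1]; exact Cfsg.Agent.Lib.Helper81.irr_one_ne_zero X.2
  have hx0 : (charDegree (χ₁ : G → ℂ) : ℂ) ≠ 0 := by
    have := Cfsg.Agent.Lib.Helper82.isIrr_charDegree_pos χ₁.2
    exact_mod_cast this.ne'
  rw [hX1] at T1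
  have key : (Nat.card G : ℂ) * ((charDegree (χ₁ : G → ℂ) : ℂ) - d1) ^ 2
      = 2 * (charDegree (χ₁ : G → ℂ) : ℂ) * ((charDegree (χ₁ : G → ℂ) : ℂ) + d1)
        * (Nat.card C : ℂ) * (m : ℂ) ^ 2 := by
    field_simp at T1
    linear_combination T1 + (Nat.card G : ℂ) * (3 * (d1 : ℂ) * (charDegree (χ₁ : G → ℂ) : ℂ)
      - (d1 : ℂ) ^ 2) * hδc
  have keyQ : (Nat.card G : ℚ) * ((charDegree (χ₁ : G → ℂ) : ℚ) - d1) ^ 2
      = 2 * (charDegree (χ₁ : G → ℂ) : ℚ) * ((charDegree (χ₁ : G → ℂ) : ℚ) + d1)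
        * (Nat.card C : ℚ) * (m : ℚ) ^ 2 := by
    exact_mod_cast key
  rw [keyQ, hm, ← hC]
  ring

end Cfsg.Agent.Lib.Helper25
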