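import Cfsg.Agent.Lib.Helper25.DihOrder5
import Cfsg.Agent.S0206

set_option autoImplicit false

/-! From generators and relations to the ambient dihedral data. -/

open Cfsg

namespace Cfsg.Agent.Lib.Helper25

variable {G : Type*} [Group G] [Finite G]

theorem Dih.change_τ {P : Subgroup G} {σ τ τ' : G} {N : ℕ} (D : Dih P σ τ' N) (hN : 3 ≤ N)
    (hτ : τ ∈ P) (hτo : orderOf τ = 2) (hrel : τ * σ * τ⁻¹ = σ⁻¹) : Dih P σ τ N := by
  have hττ : τ * τ = 1 := (Cfsg.Agent.Lib.Helper11.orderOf_two_iff.1 hτo).1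
  have hτA : τ ∉ Subgroup.zpowers σ := by
    intro h
    obtain ⟨k, hk⟩ := h
    have h2 : τ * σ = σ * τ := by
      rw [← hk]
      exact ((Commute.refl σ).zpow_left k)
    rw [h2, mul_inv_cancel_right] at hrel
    have h3 : σ ^ 2 = 1 := by
      rw [sq]
      calc σ * σ = σ * σ⁻¹ := by rw [← hrel]
        _ = 1 := mul_inv_cancel σ
    have h4 := orderOf_dvd_of_pow_eq_one h3
    rw [D.ordσ] at h4
    have := Nat.le_of_dvd (by norm_num) h4
    omega
  refine ⟨D.σ_mem, hτ, D.ordσ, hτo, hrel, ?_, D.card⟩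
  intro x hx
  by_cases hxA : x ∈ Subgroup.zpowers σ
  · obtain ⟨a, ha⟩ := (mem_powers_iff_mem_zpowers).2 hxA
    exact ⟨a, Or.inl ha.symm⟩
  · have h1 := D.mul_mem_of_not_mem hx hxA hτ hτA
    obtain ⟨a, ha⟩ := (mem_powers_iff_mem_zpowers).2 h1
    refine ⟨a, Or.inr ?_⟩
    have ha' : σ ^ a = x * τ := ha
    rw [ha', mul_assoc, hττ, mul_one]

theorem dih_of_closure {P : Subgroup G} (hP2 : IsPGroup 2 P) {σ τ : G} {N : ℕ} (hN : 3 ≤ N)
    (hσo : orderOf σ = N) (hτo : orderOf τ = 2) (hrel : τ * σ * τ⁻¹ = σ⁻¹)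
    (hgen : Subgroup.closure ({σ, τ} : Set G) = P) :
    Nonempty (P ≃* DihedralGroup N) ∧ Dih P σ τ N := by
  have hσ : σ ∈ P := hgen ▸ Subgroup.subset_closure (by simp)
  have hτ : τ ∈ P := hgen ▸ Subgroup.subset_closure (by simp)
  obtain ⟨hττ, hτ1⟩ := Cfsg.Agent.Lib.Helper11.orderOf_two_iff.1 hτo
  have hτi : τ⁻¹ = τ := inv_eq_of_mul_eq_one_left hττ
  have hσ1 : σ ≠ 1 := by
    intro h; rw [h, orderOf_one] at hσo; omega
  have h1 : σ * τ * (σ * τ) = 1 := by
    have e : σ * τ * (σ * τ) = σ * (τ * σ * τ⁻¹) * (τ * τ) := by group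
    rw [e, hrel, hττ]; group
  have h2 : σ * τ ≠ 1 := by
    intro h
    have h3 : σ = τ := by
      rw [← hτi]; exact eq_inv_of_mul_eq_one_left h
    rw [h3, hτo] at hσo; omega
  have h3 : σ * τ ≠ τ := fun h => hσ1 (mul_eq_right.1 h)
  have hiso := Cfsg.Agent.S0206.result (σ * τ) τ
    (Cfsg.Agent.Lib.Helper11.orderOf_two_iff.2 ⟨h1, h2⟩) hτo h3
  have hcl : Subgroup.closure ({σ * τ, τ} : Set G) = P := by
    rw [← hgen]
    apply le_antisymm
    · rw [Subgroup.closure_le]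
      rintro x (rfl | rfl)
      · exact Subgroup.mul_mem _ (Subgroup.subset_closure (by simp))
          (Subgroup.subset_closure (by simp))
      · exact Subgroup.subset_closure (by simp)
    · rw [Subgroup.closure_le]
      rintro x (rfl | rfl)
      · have e : x = x * τ * τ⁻¹ := by group
        rw [e]
        exact Subgroup.mul_mem _ (Subgroup.subset_closure (by simp))
          (Subgroup.inv_mem _ (Subgroup.subset_closure (by simp)))
      · exact Subgroup.subset_closure (by simp)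
  have ho : orderOf (σ * τ * τ) = N := by rw [mul_assoc, hττ, mul_one, hσo]
  rw [hcl, ho] at hiso
  obtain ⟨e⟩ := hiso
  obtain ⟨τ', D'⟩ := exists_dih P hP2 N hN e hσ hσo
  exact ⟨⟨e⟩, D'.change_τ hN hτ hτo hrel⟩

end Cfsg.Agent.Lib.Helper25
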