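import Cfsg.Agent.Lib.Helper25.ZStarMain

set_option autoImplicit false

/-! Isolated involutions normalize Sylow subgroups (a consequence of the Z*-theorem). -/

open Cfsg

namespace Cfsg.Agent.Lib.Helper25

/-- an involutory self-map of a finite set of odd size has a fixed point. -/
theorem exists_fixed_of_involutive_odd {α : Type*} [Finite α] (f : α → α)
    (hf : ∀ a, f (f a) = a) (hodd : Odd (Nat.card α)) : ∃ a, f a = a := by
  classical
  have := Fintype.ofFinite α
  have : Fact (Nat.Prime 2) := ⟨Nat.prime_two⟩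
  obtain ⟨F, hF⟩ : ∃ F : Function.End α, F = f := ⟨f, rfl⟩
  have hFF : F ^ 2 ^ 1 = 1 := by
    rw [pow_one, pow_two]
    funext a
    show F (F a) = a
    rw [hF]; exact hf a
  have h := Equiv.Perm.card_fixedPoints_modEq (f := F) (p := 2) (n := 1) hFF
  by_contra hcon
  push Not at hcon
  have h0 : IsEmpty (Function.fixedPoints F) :=
    ⟨fun a => hcon a.1 ((congrFun hF a.1).symm.trans a.2)⟩
  rw [Nat.card_eq_fintype_card] at hodd
  have h1 : Fintype.card α % 2 = 0 := by
    have h2 := h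
    unfold Nat.ModEq at h2
    rw [h2, Fintype.card_eq_zero]
  rcases hodd with ⟨k, hk⟩
  omega

variable {G : Type*} [Group G] [Finite G]

theorem exists_invariant_sylow {z : G} (hz : IsIsolatedInvolution z) (p : ℕ) [Fact p.Prime] :
    ∃ P : Sylow p G, z ∈ Subgroup.normalizer ((P : Subgroup G) : Set G) := by
  by_cases hp : p = 2
  · subst hp
    have hzp : IsPGroup 2 (Subgroup.zpowers z) :=
      IsPGroup.of_card (n := 1) (by rw [Nat.card_zpowers, hz.1, pow_one])
    obtain ⟨P, hP⟩ := hzp.exists_le_sylow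
    exact ⟨P, Subgroup.le_normalizer (hP (Subgroup.mem_zpowers z))⟩
  · obtain ⟨P0⟩ : Nonempty (Sylow p G) := inferInstance
    have hZ := glauberman_zstar hz
    obtain ⟨N, hN⟩ : ∃ N, N = pPrimeCore 2 G := ⟨_, rfl⟩
    have hNn : N.Normal := hN ▸ (Cfsg.Agent.Lib.Helper40.pPrimeCore_mem 2 G).1
    have hNodd : Odd (Nat.card N) := hN ▸ odd_card_pPrimeCore
    obtain ⟨Y, hY⟩ : ∃ Y, Y = N ⊔ (P0 : Subgroup G) := ⟨_, rfl⟩
    have hpodd : Odd p := (Fact.out : p.Prime).odd_of_ne_two hp
    have hYodd : Odd (Nat.card Y) := by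
      have h1 : N.relIndex Y * Nat.card N = Nat.card Y := by
        have hle : N ≤ Y := hY ▸ le_sup_left
        have h1 := Subgroup.card_mul_index (N.subgroupOf Y)
        rw [Nat.card_congr (Subgroup.subgroupOfEquivOfLe hle).toEquiv] at h1
        rw [mul_comm]; exact h1
      rw [← h1]
      apply Odd.mul _ hNodd
      rw [hY, Subgroup.relIndex_sup_left]
      have h2 : N.relIndex (P0 : Subgroup G) ∣ Nat.card (P0 : Subgroup G) :=
        Subgroup.relIndex_dvd_card _ _
      obtain ⟨k, hk⟩ := P0.2.exists_card_eq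
      rw [hk] at h2
      exact Odd.of_dvd_nat (hpodd.pow) h2
    have hzY : ∀ y ∈ Y, z * y * z⁻¹ ∈ Y := by
      intro y hy
      have h1 : Y.map (MulAut.conj z).toMonoidHom ≤ Y := by
        rw [hY, Subgroup.map_sup]
        apply sup_le
        · rintro _ ⟨n, hn, rfl⟩
          exact Subgroup.mem_sup_left (hNn.conj_mem n hn z)
        · rintro _ ⟨x, hx, rfl⟩
          have e : (MulAut.conj z).toMonoidHom x = (z * x * z⁻¹ * x⁻¹) * x := by
            simp [MulAut.conj_apply]
          rw [e]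
          apply Subgroup.mul_mem _ (Subgroup.mem_sup_left _) (Subgroup.mem_sup_right hx)
          have h2 := Subgroup.inv_mem _ (hZ x)
          rw [← hN] at h2
          have e2 : (x * z * x⁻¹ * z⁻¹)⁻¹ = z * x * z⁻¹ * x⁻¹ := by group
          rwa [e2] at h2
      exact h1 ⟨y, hy, by simp [MulAut.conj_apply]⟩
    have hP0Y : (P0 : Subgroup G) ≤ Y := hY ▸ le_sup_right
    have hset : {Q : Sylow p G | (Q : Subgroup G) ≤ Y} = MulAction.orbit Y P0 := by
      ext Q
      constructor
      · intro hQ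
        obtain ⟨y, hy⟩ := MulAction.exists_smul_eq Y (P0.subtype hP0Y) (Q.subtype hQ)
        rw [Sylow.smul_subtype] at hy
        exact ⟨y, Sylow.subtype_injective hy⟩
      · rintro ⟨y, rfl⟩
        exact Sylow.smul_le hP0Y y
    have hcard : Odd (Nat.card {Q : Sylow p G | (Q : Subgroup G) ≤ Y}) := by
      rw [hset, Nat.card_coe_set_eq, ← MulAction.index_stabilizer]
      exact Odd.of_dvd_nat hYodd (Subgroup.index_dvd_card _)
    have hzQ : ∀ Q : Sylow p G, (Q : Subgroup G) ≤ Y → ((z • Q : Sylow p G) : Subgroup G) ≤ Y := by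
      intro Q hQ
      rw [Sylow.coe_subgroup_smul]
      rintro _ ⟨x, hx, rfl⟩
      exact hzY x (hQ hx)
    obtain ⟨⟨Q, hQ⟩, hfix⟩ := exists_fixed_of_involutive_odd
      (α := {Q : Sylow p G | (Q : Subgroup G) ≤ Y}) (fun Q => ⟨z • Q.1, hzQ Q.1 Q.2⟩) (by
        rintro ⟨Q, hQ⟩
        apply Subtype.ext
        show z • z • Q = Q
        rw [← mul_smul, isolated_sq hz, one_smul]) hcard
    refine ⟨Q, ?_⟩
    exact Sylow.smul_eq_iff_mem_normalizer.1 (congrArg Subtype.val hfix)

end Cfsg.Agent.Lib.Helper25
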