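import Cfsg.Agent.Lib.Helper25.IsoSylow
import Cfsg.Agent.Lib.Helper11.NPC
import Cfsg.Agent.S1180

set_option autoImplicit false

/-! Maximal invariant `p`-subgroups for an isolated involution are Sylow subgroups. -/

open Cfsg

namespace Cfsg.Agent.Lib.Helper25

variable {G : Type*} [Group G] [Finite G]

/-- a `p`-subgroup which is a Sylow subgroup of its normalizer is a Sylow subgroup. -/
theorem sylow_of_sylow_normalizer {p : ℕ} [Fact p.Prime] (Q : Subgroup G) (hQ : IsPGroup p Q)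
    (h : ∀ U : Subgroup G, IsPGroup p U → Q ≤ U → U ≤ Subgroup.normalizer (Q : Set G) → U = Q) :
    ∃ P : Sylow p G, (P : Subgroup G) = Q := by
  obtain ⟨P, hP⟩ := hQ.exists_le_sylow
  refine ⟨P, ?_⟩
  by_contra hne
  have hnil : Group.IsNilpotent (P : Subgroup G) := IsPGroup.isNilpotent P.2
  have hlt : Q.subgroupOf (P : Subgroup G) < ⊤ := by
    rw [lt_top_iff_ne_top]
    intro htop
    apply hne
    apply le_antisymm _ hP
    intro x hx
    have : (⟨x, hx⟩ : (P : Subgroup G)) ∈ Q.subgroupOf (P : Subgroup G) := by rw [htop]; trivial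
    exact this
  have hnc := Group.normalizerCondition_of_isNilpotent (G := (P : Subgroup G)) _ hlt
  obtain ⟨x, hx1, hx2⟩ := SetLike.exists_of_lt hnc
  have hxN : (x : G) ∈ Subgroup.normalizer (Q : Set G) := by
    apply Cfsg.Agent.Lib.Helper11.mem_normalizer_of_conj_mem
    intro d hd
    have h1 := (Subgroup.mem_normalizer_iff.1 hx1 ⟨d, hP hd⟩).1 hd
    exact h1
  have hU := h ((P : Subgroup G) ⊓ Subgroup.normalizer (Q : Set G))
    (P.2.to_le inf_le_left) (le_inf hP Subgroup.le_normalizer) inf_le_right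
  apply hx2
  have : (x : G) ∈ (P : Subgroup G) ⊓ Subgroup.normalizer (Q : Set G) := ⟨x.2, hxN⟩
  rw [hU] at this
  exact this

theorem max_invariant_is_sylow {z : G} (hz : IsIsolatedInvolution z) {p : ℕ} [Fact p.Prime]
    (Q : Subgroup G) (hQ : IsPGroup p Q) (hzQ : z ∈ Subgroup.normalizer (Q : Set G))
    (hmax : ∀ R : Subgroup G, IsPGroup p R → z ∈ Subgroup.normalizer (R : Set G) → Q ≤ R → R = Q) :
    ∃ P : Sylow p G, (P : Subgroup G) = Q := by
  obtain ⟨L, hL⟩ : ∃ L, L = Subgroup.normalizer (Q : Set G) := ⟨_, rfl⟩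
  have hzL : z ∈ L := hL ▸ hzQ
  obtain ⟨T, hT⟩ := exists_invariant_sylow (isolated_subgroup hz L hzL) p
  have hQn : (Q.subgroupOf L).Normal := by
    rw [hL]; exact Subgroup.normal_in_normalizer
  have hQL : Q ≤ L := hL ▸ Subgroup.le_normalizer
  have hQp : IsPGroup p (Q.subgroupOf L) :=
    hQ.of_equiv (Subgroup.subgroupOfEquivOfLe hQL).symm
  have hQT : Q.subgroupOf L ≤ T := hQp.le_sylow_of_normal T
  obtain ⟨R, hR⟩ : ∃ R, R = (T : Subgroup L).map L.subtype := ⟨_, rfl⟩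
  have hRp : IsPGroup p R := hR ▸ T.2.map _
  have hzR : z ∈ Subgroup.normalizer (R : Set G) := by
    apply Cfsg.Agent.Lib.Helper11.mem_normalizer_of_conj_mem
    intro d hd
    rw [hR] at hd ⊢
    obtain ⟨t, ht, rfl⟩ := hd
    exact ⟨_, (Subgroup.mem_normalizer_iff.1 hT t).1 ht, rfl⟩
  have hQR : Q ≤ R := by
    intro q hq
    rw [hR]
    exact ⟨⟨q, hQL hq⟩, hQT hq, rfl⟩
  have hRQ := hmax R hRp hzR hQR
  apply sylow_of_sylow_normalizer Q hQ
  intro U hU hQU hUL
  rw [← hL] at hUL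
  have h1 : IsPGroup p (U.subgroupOf L) := hU.of_equiv (Subgroup.subgroupOfEquivOfLe hUL).symm
  have h2 : (T : Subgroup L) ≤ U.subgroupOf L := by
    intro t ht
    have : (t : G) ∈ R := by rw [hR]; exact ⟨t, ht, rfl⟩
    rw [hRQ] at this
    exact hQU this
  have h3 := T.is_maximal' h1 h2
  apply le_antisymm _ hQU
  intro u hu
  have h4 : (⟨u, hUL hu⟩ : L) ∈ U.subgroupOf L := hu
  rw [h3] at h4
  rw [← hRQ, hR]
  exact ⟨_, h4, rfl⟩

/-- every invariant `p`-subgroup lies in an invariant Sylow `p`-subgroup. -/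
theorem exists_invariant_sylow_ge {z : G} (hz : IsIsolatedInvolution z) {p : ℕ} [Fact p.Prime]
    (Q : Subgroup G) (hQ : IsPGroup p Q) (hzQ : z ∈ Subgroup.normalizer (Q : Set G)) :
    ∃ P : Sylow p G, Q ≤ P ∧ z ∈ Subgroup.normalizer ((P : Subgroup G) : Set G) := by
  -- choose a maximal invariant p-subgroup above Q
  have hfin : Set.Finite {R : Subgroup G | IsPGroup p R ∧ z ∈ Subgroup.normalizer (R : Set G) ∧
      Q ≤ R} := Set.toFinite _
  obtain ⟨R, hRM⟩ := hfin.exists_maximal ⟨Q, hQ, hzQ, le_refl Q⟩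
  have hR := hRM.1
  have hRmax := hRM.2
  obtain ⟨P, hP⟩ := max_invariant_is_sylow hz R hR.1 hR.2.1 (by
    intro R' h1 h2 h3
    exact le_antisymm (hRmax ⟨h1, h2, hR.2.2.trans h3⟩ h3) h3)
  exact ⟨P, hP ▸ hR.2.2, hP ▸ hR.2.1⟩

end Cfsg.Agent.Lib.Helper25
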