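import Cfsg.Agent.Lib.Helper25.Isolated
import Cfsg.Agent.S1184

set_option autoImplicit false

namespace Cfsg.Agent.Lib.Helper25

variable {G : Type*} [Group G]

/-- square root inside an odd order cyclic group -/
theorem exists_sqrt_of_odd {k : G} (hk : Odd (orderOf k)) : ∃ j : ℕ, k ^ j * k ^ j = k := by
  obtain ⟨j, hj⟩ := hk
  refine ⟨j + 1, ?_⟩
  rw [← pow_add, show j + 1 + (j + 1) = (2 * j + 1) + 1 by ring, ← hj, pow_succ, pow_orderOf_eq_one,
    one_mul]

/-- midpoint existence -/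
theorem isolated_midpoint_exists [Finite G] {z : G} (hz : Cfsg.IsIsolatedInvolution z) (g h : G) :
    ∃ x : G, (x * z * x⁻¹) * (g * z * g⁻¹) * (x * z * x⁻¹) = h * z * h⁻¹ := by
  have hw := isolated_conj hz g
  obtain ⟨k, hk1, hk2, hk3, -⟩ := isolated_exists_K hw (h * g⁻¹)
  have e : h * g⁻¹ * (g * z * g⁻¹) * (h * g⁻¹)⁻¹ = h * z * h⁻¹ := by group
  rw [e] at hk3
  obtain ⟨j, hj⟩ := exists_sqrt_of_odd hk1
  refine ⟨k ^ j * g, ?_⟩
  have e2 : k ^ j * g * z * (k ^ j * g)⁻¹ = k ^ j * (g * z * g⁻¹) * (k ^ j)⁻¹ := by group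
  rw [e2]
  have hww := isolated_sq hw
  have hw' := isolated_inv hw
  generalize g * z * g⁻¹ = w at *
  have hd : w * k ^ j * w⁻¹ = (k ^ j)⁻¹ := by
    rw [hw'] at hk2 ⊢
    exact inv_pow_comm hk2 hww j
  rw [conj_eq_sq_mul hww hd, hj, ← hk3, conj_eq_sq_mul hww hk2]
  have : k * w * w * (k * w) = k * (w * w) * k * w := by group
  rw [this, hww, mul_one]

/-- midpoint uniqueness -/
theorem isolated_midpoint_unique [Finite G] {z : G} (hz : Cfsg.IsIsolatedInvolution z) (g x y : G)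
    (h : (x * z * x⁻¹) * (g * z * g⁻¹) * (x * z * x⁻¹) = (y * z * y⁻¹) * (g * z * g⁻¹) * (y * z * y⁻¹)) :
    x * z * x⁻¹ = y * z * y⁻¹ := by
  by_contra hne
  have hw := isolated_conj hz g
  have hzz := isolated_sq hz
  have e1 : x * z * x⁻¹ = (x * g⁻¹) * (g * z * g⁻¹) * (x * g⁻¹)⁻¹ := by group
  have e2 : y * z * y⁻¹ = (y * g⁻¹) * (g * z * g⁻¹) * (y * g⁻¹)⁻¹ := by group
  have hxx : (x * z * x⁻¹) * (x * z * x⁻¹) = 1 := conj_sq hzz x
  have hyy : (y * z * y⁻¹) * (y * z * y⁻¹) = 1 := conj_sq hzz y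
  have key := Cfsg.Agent.S1184.result (g * z * g⁻¹) hw (y * g⁻¹) (x * g⁻¹) (by
    rw [← e1, ← e2]; exact fun h => hne h.symm)
  rw [← e1, ← e2] at key
  apply key
  generalize x * z * x⁻¹ = m at *
  generalize y * z * y⁻¹ = m' at *
  generalize g * z * g⁻¹ = w at *
  unfold Commute SemiconjBy
  have : m' * m * w = m' * (m * w * m) * m := by
    have : m' * (m * w * m) * m = m' * m * w * (m * m) := by group
    rw [this, hxx, mul_one]
  rw [this, h]
  have : m' * (m' * w * m') * m = (m' * m') * w * (m' * m) := by group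
  rw [this, hyy, one_mul]

end Cfsg.Agent.Lib.Helper25
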