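import Cfsg.Agent.Lib.Helper25.IsoSylow2
import Cfsg.Agent.Lib.Helper25.Isolated2

set_option autoImplicit false

/-! Invariant Sylow subgroups for an isolated involution: the centralizer part. -/

open Cfsg

namespace Cfsg.Agent.Lib.Helper25

variable {G : Type*} [Group G] [Finite G]

/-- two invariant Sylow `p`-subgroups are conjugate under the centralizer. -/
theorem invariant_sylow_conj {z : G} (hz : IsIsolatedInvolution z) {p : ℕ} [Fact p.Prime]
    (P P₁ : Sylow p G) (hP : z ∈ Subgroup.normalizer ((P : Subgroup G) : Set G))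
    (hP₁ : z ∈ Subgroup.normalizer ((P₁ : Subgroup G) : Set G)) :
    ∃ c : G, c * z = z * c ∧ c • P = P₁ := by
  obtain ⟨g, hg⟩ := MulAction.exists_smul_eq G P P₁
  have h1 : g⁻¹ * z * g⁻¹⁻¹ ∈ Subgroup.normalizer ((P : Subgroup G) : Set G) := by
    apply Sylow.smul_eq_iff_mem_normalizer.1
    rw [mul_smul, mul_smul, inv_inv, hg,
      Sylow.smul_eq_iff_mem_normalizer.2 hP₁, ← hg, inv_smul_smul]
  obtain ⟨h, hh, he⟩ := Cfsg.Agent.S1180.result z hz _ hP g⁻¹ h1
  refine ⟨g * h, ?_, ?_⟩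
  · have e : g * h * z = g * (h * z * h⁻¹) * h := by group
    rw [e, he]; group
  · rw [mul_smul, Sylow.smul_eq_iff_mem_normalizer.2 hh, hg]

theorem invariant_sylow_centralizer {z : G} (hz : IsIsolatedInvolution z) {p : ℕ} [Fact p.Prime]
    (P : Sylow p G) (hzP : z ∈ Subgroup.normalizer ((P : Subgroup G) : Set G)) :
    ¬ p ∣ ((P : Subgroup G) ⊓ Subgroup.centralizer ({z} : Set G)).relIndex
      (Subgroup.centralizer ({z} : Set G)) := by
  obtain ⟨C, hC⟩ : ∃ C, C = Subgroup.centralizer ({z} : Set G) := ⟨_, rfl⟩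
  rw [← hC]
  have hCmem : ∀ x : G, x ∈ C ↔ x * z = z * x := by
    intro x; rw [hC, Subgroup.mem_centralizer_singleton_iff]
  obtain ⟨R₀⟩ : Nonempty (Sylow p C) := inferInstance
  obtain ⟨R, hR⟩ : ∃ R, R = (R₀ : Subgroup C).map C.subtype := ⟨_, rfl⟩
  have hRC : R ≤ C := by
    rw [hR]; rintro _ ⟨x, -, rfl⟩; exact x.2
  have hRp : IsPGroup p R := hR ▸ R₀.2.map _
  have hzR : z ∈ Subgroup.normalizer (R : Set G) := by
    apply Cfsg.Agent.Lib.Helper11.mem_normalizer_of_conj_mem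
    intro d hd
    have := (hCmem d).1 (hRC hd)
    rw [← this, mul_inv_cancel_right]; exact hd
  obtain ⟨P₁, hRP₁, hzP₁⟩ := exists_invariant_sylow_ge hz R hRp hzR
  obtain ⟨c, hc, hcP⟩ := invariant_sylow_conj hz P P₁ hzP hzP₁
  have hcC : c ∈ C := (hCmem c).2 hc
  have hle : R ≤ ((P : Subgroup G) ⊓ C).map (MulAut.conj c).toMonoidHom := by
    intro r hr
    have h1 : r ∈ (P₁ : Subgroup G) := hRP₁ hr
    rw [← hcP, Sylow.coe_subgroup_smul] at h1
    obtain ⟨x, hx, hxr⟩ := h1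
    have hxr' : c * x * c⁻¹ = r := hxr
    refine ⟨x, ⟨hx, ?_⟩, hxr⟩
    have e : x = c⁻¹ * r * c := by rw [← hxr']; group
    rw [e]
    exact C.mul_mem (C.mul_mem (C.inv_mem hcC) (hRC hr)) hcC
  have hcard1 : Nat.card R ∣ Nat.card ((P : Subgroup G) ⊓ C : Subgroup G) := by
    have := Subgroup.card_dvd_of_le hle
    rwa [Subgroup.card_map_of_injective (MulAut.conj c).injective] at this
  have hcardR : Nat.card R = Nat.card (R₀ : Subgroup C) := by
    rw [hR]; exact Subgroup.card_map_of_injective C.subtype_injective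
  have h2 := Subgroup.card_mul_index (((P : Subgroup G) ⊓ C).subgroupOf C)
  rw [Nat.card_congr (Subgroup.subgroupOfEquivOfLe (inf_le_right)).toEquiv] at h2
  have h3 := Subgroup.card_mul_index (R₀ : Subgroup C)
  have h4 := R₀.not_dvd_index
  intro hdvd
  apply h4
  -- index of R₀ = (card (P ⊓ C) / card R₀) * relIndex
  obtain ⟨k, hk⟩ := hcard1
  rw [hcardR] at hk
  have hpos : 0 < Nat.card (R₀ : Subgroup C) := Nat.card_pos
  have h5 : (R₀ : Subgroup C).index = k * (((P : Subgroup G) ⊓ C).subgroupOf C).index := by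
    apply Nat.eq_of_mul_eq_mul_left hpos
    rw [h3, ← h2, hk]; ring
  rw [h5]
  exact Dvd.dvd.mul_left hdvd k

/-- the number of inverted elements in an invariant subgroup of odd order. -/
theorem card_inverted {z : G} (hzz : z * z = 1) (P : Subgroup G) (hodd : Odd (Nat.card P))
    (hzP : z ∈ Subgroup.normalizer (P : Set G)) :
    (P ⊓ Subgroup.centralizer ({z} : Set G)).relIndex P
      = Nat.card {x : G // x ∈ P ∧ z * x * z⁻¹ = x⁻¹} := by
  have hzi : z⁻¹ = z := inv_eq_of_mul_eq_one_left hzz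
  obtain ⟨K, hK⟩ : ∃ K, K = (P ⊓ Subgroup.centralizer ({z} : Set G)).subgroupOf P := ⟨_, rfl⟩
  have hKmem : ∀ x : P, x ∈ K ↔ (x : G) * z = z * x := by
    intro x
    rw [hK, Subgroup.mem_subgroupOf, Subgroup.mem_inf, Subgroup.mem_centralizer_singleton_iff]
    exact ⟨fun h => h.2, fun h => ⟨x.2, h⟩⟩
  have hmem : ∀ x : P, (x : G) * z * (x : G)⁻¹ * z⁻¹ ∈ P := by
    intro x
    have h1 : z * (x : G)⁻¹ * z⁻¹ ∈ P :=
      (Subgroup.mem_normalizer_iff.1 hzP _).1 (P.inv_mem x.2)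
    have e : (x : G) * z * (x : G)⁻¹ * z⁻¹ = x * (z * (x : G)⁻¹ * z⁻¹) := by group
    rw [e]; exact P.mul_mem x.2 h1
  have hinv : ∀ x : P, z * ((x : G) * z * (x : G)⁻¹ * z⁻¹) * z⁻¹
      = ((x : G) * z * (x : G)⁻¹ * z⁻¹)⁻¹ := by
    intro x
    rw [hzi]
    have e1 : ((x : G) * z * (x : G)⁻¹ * z)⁻¹ = z⁻¹ * x * z⁻¹ * (x : G)⁻¹ := by group
    rw [e1, hzi]
    have e2 : z * ((x : G) * z * (x : G)⁻¹ * z) * z = z * x * z * (x : G)⁻¹ * (z * z) := by group
    rw [e2, hzz, mul_one]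
  let f : P → {x : G // x ∈ P ∧ z * x * z⁻¹ = x⁻¹} := fun x =>
    ⟨(x : G) * z * (x : G)⁻¹ * z⁻¹, hmem x, hinv x⟩
  have hf : ∀ a b : P, f a = f b ↔ a⁻¹ * b ∈ K := by
    intro a b
    rw [hKmem]
    constructor
    · intro h
      have h1 : (a : G) * z * (a : G)⁻¹ * z⁻¹ = (b : G) * z * (b : G)⁻¹ * z⁻¹ :=
        congrArg Subtype.val h
      have h2 : (a : G) * z * (a : G)⁻¹ = (b : G) * z * (b : G)⁻¹ := mul_right_cancel h1
      push_cast
      have e : (a : G)⁻¹ * b * z = (a : G)⁻¹ * ((b : G) * z * (b : G)⁻¹) * b := by group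
      rw [e, ← h2]; group
    · intro h
      apply Subtype.ext
      show (a : G) * z * (a : G)⁻¹ * z⁻¹ = (b : G) * z * (b : G)⁻¹ * z⁻¹
      congr 1
      push_cast at h
      have e : (b : G) * z * (b : G)⁻¹ = a * ((a : G)⁻¹ * b * z) * (b : G)⁻¹ := by group
      rw [e, h]; group
  have hsurj : Function.Surjective f := by
    rintro ⟨y, hyP, hy⟩
    have hyodd : Odd (orderOf y) := by
      have h1 : orderOf (⟨y, hyP⟩ : P) ∣ Nat.card P := orderOf_dvd_natCard _
      rw [Subgroup.orderOf_mk] at h1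
      exact Odd.of_dvd_nat hodd h1
    obtain ⟨j, hj⟩ := exists_sqrt_of_odd hyodd
    refine ⟨⟨y ^ j, P.pow_mem hyP j⟩, ?_⟩
    apply Subtype.ext
    show y ^ j * z * (y ^ j)⁻¹ * z⁻¹ = y
    have h1 : z * (y ^ j)⁻¹ * z⁻¹ = y ^ j := by
      rw [← inv_pow, ← hy, conj_pow]
      have e : z * (z * y ^ j * z⁻¹) * z⁻¹ = (z * z) * y ^ j * (z * z)⁻¹ := by group
      rw [e, hzz]; group
    have e : y ^ j * z * (y ^ j)⁻¹ * z⁻¹ = y ^ j * (z * (y ^ j)⁻¹ * z⁻¹) := by group
    rw [e, h1, hj]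
  have hrel : (P ⊓ Subgroup.centralizer ({z} : Set G)).relIndex P = Nat.card (P ⧸ K) := by
    rw [hK]; rfl
  rw [hrel]
  apply Nat.card_congr
  refine Equiv.ofBijective (Quotient.lift f (fun a b hab => (hf a b).2
    (QuotientGroup.leftRel_apply.1 hab))) ⟨?_, ?_⟩
  · intro a b
    induction a using Quotient.inductionOn with
    | _ a =>
      induction b using Quotient.inductionOn with
      | _ b =>
        intro h
        exact Quotient.sound (QuotientGroup.leftRel_apply.2 ((hf a b).1 h))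
  · intro y
    obtain ⟨x, hx⟩ := hsurj y
    exact ⟨Quotient.mk _ x, hx⟩

end Cfsg.Agent.Lib.Helper25
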