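import Cfsg.Prelude.Def_LieRecognition
import Mathlib

set_option autoImplicit false

namespace Cfsg.Agent.Lib.Helper25

variable {G Ω : Type*} [Group G] [MulAction G Ω] {a : Ω} {t : G} {Q : Subgroup G}

theorem r1_t_inv (hS : Cfsg.IsRankOneSetup G Ω a t Q) : t⁻¹ = t :=
  inv_eq_of_mul_eq_one_left hS.mul_self

theorem r1_tt_smul (hS : Cfsg.IsRankOneSetup G Ω a t Q) (b : Ω) : t • t • b = b := by
  rw [← mul_smul, hS.mul_self, one_smul]

/-- `t` normalizes the two point stabilizer -/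
theorem r1_conj_D (hS : Cfsg.IsRankOneSetup G Ω a t Q) {h : G}
    (hh : h ∈ MulAction.stabilizer G a ⊓ MulAction.stabilizer G (t • a)) :
    t * h * t ∈ MulAction.stabilizer G a ⊓ MulAction.stabilizer G (t • a) := by
  obtain ⟨h1, h2⟩ := hh
  have h1' : h • a = a := h1
  have h2' : h • t • a = t • a := h2
  refine ⟨?_, ?_⟩
  · change (t * h * t) • a = a
    rw [mul_smul, mul_smul, h2', r1_tt_smul hS]
  · change (t * h * t) • t • a = t • a
    rw [mul_smul, mul_smul, r1_tt_smul hS, h1']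

/-- if `t * f * t` fixes `a` with `f ∈ Q`, then `f = 1` -/
theorem r1_eq_one (hS : Cfsg.IsRankOneSetup G Ω a t Q) {f : G} (hf : f ∈ Q)
    (h : t * f * t ∈ MulAction.stabilizer G a) : f = 1 := by
  have h1 : (t * f * t) • a = a := h
  have h2 : f • t • a = t • a := by
    rw [mul_smul, mul_smul] at h1
    have := congrArg (fun b => t • b) h1
    simpa [r1_tt_smul hS] using this
  have h3 : f ∈ Q ⊓ MulAction.stabilizer G (t • a) := ⟨hf, h2⟩
  rw [hS.inf_eq_bot, Subgroup.mem_bot] at h3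
  exact h3

theorem r1_D_le (_hS : Cfsg.IsRankOneSetup G Ω a t Q) {h : G}
    (hh : h ∈ MulAction.stabilizer G a ⊓ MulAction.stabilizer G (t • a)) :
    h ∈ MulAction.stabilizer G a := hh.1

/-- uniqueness of the canonical form `g h t f` -/
theorem r1_unique (hS : Cfsg.IsRankOneSetup G Ω a t Q) {g h f g' h' f' : G}
    (hg : g ∈ Q) (hh : h ∈ MulAction.stabilizer G a ⊓ MulAction.stabilizer G (t • a)) (hf : f ∈ Q)
    (hg' : g' ∈ Q) (hh' : h' ∈ MulAction.stabilizer G a ⊓ MulAction.stabilizer G (t • a))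
    (hf' : f' ∈ Q) (he : g * h * t * f = g' * h' * t * f') : g = g' ∧ h = h' ∧ f = f' := by
  have ht := r1_t_inv hS
  have h1 : t * (f * f'⁻¹) * t = (g * h)⁻¹ * (g' * h') := by
    have e1 : t * (f * f'⁻¹) * t = (g * h)⁻¹ * (g * h * t * f) * f'⁻¹ * t := by group
    rw [e1, he]
    have e2 : (g * h)⁻¹ * (g' * h' * t * f') * f'⁻¹ * t = (g * h)⁻¹ * (g' * h') * (t * t) := by group
    rw [e2, hS.mul_self, mul_one]
  have h2 : t * (f * f'⁻¹) * t ∈ MulAction.stabilizer G a := by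
    rw [h1]
    exact Subgroup.mul_mem _ (Subgroup.inv_mem _ (Subgroup.mul_mem _ (hS.le hg) hh.1))
      (Subgroup.mul_mem _ (hS.le hg') hh'.1)
  have h3 := r1_eq_one hS (Q.mul_mem hf (Q.inv_mem hf')) h2
  have hff : f = f' := by
    have := congrArg (fun u => u * f') h3
    simpa using this
  subst hff
  have h4 : g * h = g' * h' := by
    have := congrArg (fun u => u * f⁻¹ * t) he
    simpa [mul_assoc, hS.mul_self] using this
  have h5 : g'⁻¹ * g = h' * h⁻¹ := by
    have e : g'⁻¹ * g = g'⁻¹ * (g * h) * h⁻¹ := by group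
    rw [e, h4]; group
  have h6 : g'⁻¹ * g ∈ Q ⊓ MulAction.stabilizer G (t • a) := by
    refine ⟨Q.mul_mem (Q.inv_mem hg') hg, ?_⟩
    change g'⁻¹ * g ∈ MulAction.stabilizer G (t • a)
    rw [h5]
    exact Subgroup.mul_mem _ hh'.2 (Subgroup.inv_mem _ hh.2)
  rw [hS.inf_eq_bot, Subgroup.mem_bot] at h6
  have hgg : g = g' := by
    have := congrArg (fun u => g' * u) h6
    simpa using this
  subst hgg
  exact ⟨rfl, mul_left_cancel h4, rfl⟩

end Cfsg.Agent.Lib.Helper25
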